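import Mathlib
import Cfsg.Agent.Lib.ZN.Struct

/-!
The structure theorem for subgroups `L` of an ambient group, and the standing hypothesis on the
ambient group.
-/

set_option autoImplicit false

open Subgroup Cfsg CfsgLib.LAE CfsgLib.PLocal
open scoped commutatorElement

namespace CfsgLib.ZN

variable {G : Type*} [Group G]

/-- `T` is a Sylow `2`-subgroup of `L` and `L` satisfies the standing hypothesis. -/
structure Loc (L T : Subgroup G) : Prop where
  ctx : Ctx L
  syl : IsSylowIn 2 T L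

theorem map_subgroupOf_of_le {K L : Subgroup G} (h : K ≤ L) :
    (K.subgroupOf L).map L.subtype = K := by
  rw [subgroupOf_map_subtype, inf_eq_left.mpr h]

theorem map_vOf (L : Subgroup G) : (vOf L).map L.subtype = omegaZ 2 (pCoreOf 2 L) := by
  rw [vOf, map_omegaZ L.subtype_injective, pCoreOf_def]

theorem map_thompson_top (L : Subgroup G) :
    (thompsonSubgroup 2 L).map L.subtype = thompsonSubgroupOf 2 L := by
  rw [map_thompsonSubgroup L.subtype_injective, range_subtype]

theorem map_thompson_subgroupOf {T L : Subgroup G} (h : T ≤ L) :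
    (thompsonSubgroupOf 2 (T.subgroupOf L)).map L.subtype = thompsonSubgroupOf 2 T := by
  rw [map_thompsonSubgroupOf L.subtype_injective, map_subgroupOf_of_le h]

theorem map_centralizer_vOf (L : Subgroup G) : (centralizer (vOf L : Set L)).map L.subtype =
    L ⊓ centralizer (omegaZ 2 (pCoreOf 2 L) : Set G) := by
  rw [map_subtype_centralizer, map_vOf]

namespace Loc

variable [Finite G] {L T K K' : Subgroup G} (h : Loc L T)
include h

omit [Finite G] in
theorem syl_top : IsSylowIn 2 (T.subgroupOf L) ⊤ := by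
  have := h.syl.subgroupOf le_rfl
  rwa [subgroupOf_self] at this

omit [Finite G] in
theorem down (hK : JC (thompsonSubgroupOf 2 T) K) (hKL : K ≤ L) :
    JC (thompsonSubgroupOf 2 (T.subgroupOf L)) (K.subgroupOf L) := by
  refine JC.of_map L.subtype_injective ?_
  rwa [map_thompson_subgroupOf h.syl.le, map_subgroupOf_of_le hKL]

theorem up {K : Subgroup L} (hK : JC (thompsonSubgroupOf 2 (T.subgroupOf L)) K) :
    JC (thompsonSubgroupOf 2 T) (K.map L.subtype) := by
  have := hK.map L.subtype_injective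
  rwa [map_thompson_subgroupOf h.syl.le] at this

omit [Finite G] in
theorem of_syl {T' : Subgroup G} (hT : IsSylowIn 2 T' L) : Loc L T' := ⟨h.ctx, hT⟩

theorem le_pCoreOf {R : Subgroup G} (hR : IsPGroup 2 R) (hRL : R ≤ L)
    (hRC : R ≤ centralizer (omegaZ 2 (pCoreOf 2 L) : Set G)) : R ≤ pCoreOf 2 L := by
  have h1 := h.ctx.le_pCore_of_le (R := R.subgroupOf L) ((isPGroup_subgroupOf_iff hRL).mpr hR) (by
    rw [← map_le_centralizer_map_iff L.subtype_injective, map_vOf, map_subgroupOf_of_le hRL]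
    exact hRC)
  have h2 := map_mono (f := L.subtype) h1
  rwa [map_subgroupOf_of_le hRL] at h2

theorem commutator_le {R : Subgroup G} (hR : IsPGroup 2 R) (hRL : R ≤ L) :
    ⁅R, L ⊓ centralizer (omegaZ 2 (pCoreOf 2 L) : Set G)⁆ ≤ pCoreOf 2 L := by
  have h2 := map_mono (f := L.subtype)
    (h.ctx.commutator_le (R := R.subgroupOf L) ((isPGroup_subgroupOf_iff hRL).mpr hR))
  rwa [map_commutator, map_subgroupOf_of_le hRL, map_centralizer_vOf] at h2

omit [Finite G] in
theorem inf_centralizer_le :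
    L ⊓ centralizer (omegaZ 2 (pCoreOf 2 L) : Set G) ≤ normalizer (T : Set G) := by
  have h2 := map_le_normalizer_map L.subtype (h.ctx.hC _ h.syl_top)
  rwa [map_subgroupOf_of_le h.syl.le, map_centralizer_vOf] at h2

theorem thompson_le : thompsonSubgroupOf 2 T ≤ thompsonSubgroupOf 2 L := by
  have h2 := map_mono (f := L.subtype) (thompson_le_top h.syl_top)
  rwa [map_thompson_subgroupOf h.syl.le, map_thompson_top] at h2

theorem jc_le (hK : JC (thompsonSubgroupOf 2 T) K) (hKL : K ≤ L) : K ≤ thompsonSubgroupOf 2 L := by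
  have h2 := map_mono (f := L.subtype) (h.ctx.jc_le h.syl_top (h.down hK hKL))
  rwa [map_subgroupOf_of_le hKL, map_thompson_top] at h2

theorem jc_norm (hK : JC (thompsonSubgroupOf 2 T) K) (hKL : K ≤ L) :
    thompsonSubgroupOf 2 L ⊔ (L ⊓ centralizer (omegaZ 2 (pCoreOf 2 L) : Set G)) ≤
      normalizer (K : Set G) := by
  have h2 := map_le_normalizer_map L.subtype (h.ctx.jc_norm h.syl_top (h.down hK hKL))
  rwa [map_subgroupOf_of_le hKL, Subgroup.map_sup, map_thompson_top, map_centralizer_vOf] at h2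

theorem pCoreOf_le_normalizer (hK : JC (thompsonSubgroupOf 2 T) K) (hKL : K ≤ L) :
    pCoreOf 2 L ≤ normalizer (K : Set G) :=
  ((le_inf (pCoreOf_le L) (le_centralizer_omegaZ _)).trans le_sup_right).trans (h.jc_norm hK hKL)

theorem le_normalizer (hK : JC (thompsonSubgroupOf 2 T) K) (hKL : K ≤ L)
    (hK' : JC (thompsonSubgroupOf 2 T) K') (hKL' : K' ≤ L) : K' ≤ normalizer (K : Set G) :=
  ((h.jc_le hK' hKL').trans le_sup_left).trans (h.jc_norm hK hKL)

theorem subnormalIn (hK : JC (thompsonSubgroupOf 2 T) K) (hKL : K ≤ L) : SubnormalIn K L :=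
  (SubnormalIn.of_normal (h.jc_le hK hKL) (le_sup_left.trans (h.jc_norm hK hKL))).trans
    (SubnormalIn.of_normal (thompsonSubgroupOf_le L) (le_normalizer_thompson L))

theorem wOf_le (hK : JC (thompsonSubgroupOf 2 T) K) (hKL : K ≤ L) :
    wOf K ≤ omegaZ 2 (pCoreOf 2 L) := by
  have h2 := map_mono (f := L.subtype) (h.ctx.wOf_le_vOf h.syl_top (h.down hK hKL))
  rwa [map_wOf L.subtype_injective, map_subgroupOf_of_le hKL, map_vOf] at h2

theorem pCoreOf_jc_le (hK : JC (thompsonSubgroupOf 2 T) K) (hKL : K ≤ L) :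
    pCoreOf 2 K ≤ pCoreOf 2 L := (h.subnormalIn hK hKL).pCoreOf_le

theorem jc_cent (hK : JC (thompsonSubgroupOf 2 T) K) (hKL : K ≤ L)
    (hK' : JC (thompsonSubgroupOf 2 T) K') (hKL' : K' ≤ L) (hne : K ≠ K') :
    K' ≤ centralizer (wOf K : Set G) := by
  have h2 := map_le_centralizer_map L.subtype (h.ctx.jc_cent h.syl_top (h.down hK hKL)
    (h.down hK' hKL') fun e => hne (by
      rw [← map_subgroupOf_of_le hKL, e, map_subgroupOf_of_le hKL']))
  rwa [map_wOf L.subtype_injective, map_subgroupOf_of_le hKL, map_subgroupOf_of_le hKL'] at h2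

theorem wOf_inf_eq_bot (hK : JC (thompsonSubgroupOf 2 T) K) (hKL : K ≤ L)
    (hK' : JC (thompsonSubgroupOf 2 T) K') (hKL' : K' ≤ L) (hne : K ≠ K') :
    wOf K ⊓ wOf K' = ⊥ := by
  rw [eq_bot_iff, ← hK'.inf_centralizer_eq_bot]
  exact le_inf inf_le_right (inf_le_left.trans
    (le_centralizer_iff.mp (h.jc_cent hK hKL hK' hKL' hne)))

theorem jc_conj (hK : JC (thompsonSubgroupOf 2 T) K) (hKL : K ≤ L) {g : G} (hg : g ∈ L) :
    JC (thompsonSubgroupOf 2 T) (conjS g K) := by
  have h2 := h.up (h.ctx.jc_conj h.syl_top (h.down hK hKL) ⟨g, hg⟩)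
  rwa [map_conjS, map_subgroupOf_of_le hKL] at h2

theorem mem_normalizer_of_inf (hK : JC (thompsonSubgroupOf 2 T) K) (hKL : K ≤ L) {g : G}
    (hg : g ∈ L) (hne : wOf K ⊓ conjS g (wOf K) ≠ ⊥) : g ∈ normalizer (K : Set G) := by
  rw [mem_normalizer_iff_conjS]
  by_contra e
  rw [conjS_wOf] at hne
  exact hne (h.wOf_inf_eq_bot hK hKL (h.jc_conj hK hKL hg) (conjS_le_of_le_of_mem hKL hg)
    (Ne.symm e))

theorem v_le_of {Y : Subgroup G}
    (h1 : omegaZ 2 (pCoreOf 2 L) ⊓ centralizer (thompsonSubgroupOf 2 L : Set G) ≤ Y)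
    (h2 : ∀ K, JC (thompsonSubgroupOf 2 T) K → K ≤ L → wOf K ≤ Y) :
    omegaZ 2 (pCoreOf 2 L) ≤ Y := by
  rw [← map_vOf, map_le_iff_le_comap]
  refine h.ctx.vOf_le_of h.syl_top ?_ fun K hK => ?_
  · rw [← map_le_iff_le_comap]
    refine le_trans (le_inf ?_ ?_) h1
    · rw [← map_vOf]; exact map_mono inf_le_left
    · rw [← map_thompson_top]; exact map_le_centralizer_map _ inf_le_right
  · rw [← map_le_iff_le_comap, map_wOf L.subtype_injective]
    exact h2 _ (h.up hK) (map_subtype_le K)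

theorem le_of {Y : Subgroup G} (h1 : L ⊓ normalizer (thompsonSubgroupOf 2 T : Set G) ≤ Y)
    (h2 : ∀ K, JC (thompsonSubgroupOf 2 T) K → K ≤ L → K ≤ Y) : L ≤ Y := by
  rw [← subgroupOf_eq_top]
  refine h.ctx.eq_top_of h.syl_top ?_ fun K hK => ?_
  · refine map_le_iff_le_comap.mp (le_trans (le_inf (map_subtype_le _) ?_) h1)
    rw [← map_thompson_subgroupOf h.syl.le]
    exact map_le_normalizer_map _ le_rfl
  · exact map_le_iff_le_comap.mp (h2 _ (h.up hK) (map_subtype_le K))

theorem thompson_le_of {Y : Subgroup G}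
    (h1 : thompsonSubgroupOf 2 L ⊓ centralizer (omegaZ 2 (pCoreOf 2 L) : Set G) ≤ Y)
    (h1' : T ⊓ thompsonSubgroupOf 2 L ≤ Y)
    (h2 : ∀ K, JC (thompsonSubgroupOf 2 T) K → K ≤ L → K ≤ Y) : thompsonSubgroupOf 2 L ≤ Y := by
  rw [← map_thompson_top, map_le_iff_le_comap]
  refine h.ctx.thompson_top_le_of h.syl_top ?_ ?_ fun K hK => ?_
  · rw [← map_le_iff_le_comap]
    refine le_trans (le_inf ?_ ?_) h1
    · rw [← map_thompson_top]; exact map_mono inf_le_left
    · rw [← map_vOf]; exact map_le_centralizer_map _ inf_le_right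
  · rw [← map_le_iff_le_comap]
    refine le_trans (le_inf ?_ ?_) h1'
    · exact (map_mono inf_le_left).trans (map_subgroupOf_of_le h.syl.le).le
    · rw [← map_thompson_top]; exact map_mono inf_le_right
  · rw [← map_le_iff_le_comap]
    exact h2 _ (h.up hK) (map_subtype_le K)

theorem v_le_thompson : omegaZ 2 (pCoreOf 2 L) ≤ thompsonSubgroupOf 2 T := by
  have h2 := map_mono (f := L.subtype) (h.ctx.vOf_le_thompson h.syl_top)
  rwa [map_vOf, map_thompson_subgroupOf h.syl.le] at h2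

theorem exists_jc (hJ : ¬ thompsonSubgroupOf 2 T ≤ pCoreOf 2 L) :
    ∃ K, JC (thompsonSubgroupOf 2 T) K ∧ K ≤ L := by
  by_contra hne
  push Not at hne
  exact hJ (LAE.le_pCoreOf (isPGroup_thompson h.syl.isPGroup)
    ((thompsonSubgroupOf_le T).trans h.syl.le)
    (h.le_of inf_le_right fun K hK hKL => absurd hKL (hne K hK)))

end Loc

/-- The standing hypothesis on the ambient group. -/
structure Hyp (G : Type*) [Group G] : Prop where
  hL : IsCharacteristicTwoType G
  hN : ∀ N : Subgroup G, IsTwoLocal N → Group.IsSolvable N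
  hZ : ∀ S : Sylow 2 G, centralizer (omegaCenterOf (S : Subgroup G) : Set G) ≤
    normalizer ((S : Subgroup G) : Set G)

/-- `O₂(L)` contains its centralizer in the ambient group. -/
def Sc (L : Subgroup G) : Prop := centralizer (pCoreOf 2 L : Set G) ≤ pCoreOf 2 L

theorem Sc.of_le {L L' : Subgroup G} (h : Sc L) (hle : pCoreOf 2 L ≤ pCoreOf 2 L') : Sc L' :=
  (centralizer_anti hle).trans (le_trans h hle)

theorem Sc.of_between {L L' : Subgroup G} (h : Sc L) (h1 : pCoreOf 2 L ≤ L') (h2 : L' ≤ L) :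
    Sc L' := h.of_le (pCoreOf_le_pCoreOf_of_le h2 h1)

theorem Sc.conj {L : Subgroup G} (h : Sc L) (g : G) : Sc (conjS g L) := by
  unfold Sc
  rw [← conjS_pCoreOf, ← conjS_centralizer]
  exact conjS_mono h

theorem Sc.omegaZ_le {L P : Subgroup G} (h : Sc L) (hP : pCoreOf 2 L ≤ P) :
    omegaZ 2 P ≤ omegaZ 2 (pCoreOf 2 L) := by
  have h1 := (omegaZ_le_centralizer (p := 2) P).trans (centralizer_anti hP)
  exact le_omegaZ (elemAb_omegaZ _) (h1.trans h) h1

theorem isTwoLocal_normalizer {R : Subgroup G} (hR : IsPGroup 2 R) (h : R ≠ ⊥) :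
    IsTwoLocal (normalizer (R : Set G)) := ⟨R, hR, h, rfl⟩

theorem isTwoLocal_pCoreOf_ne_bot {L : Subgroup G} (h : IsTwoLocal L) : pCoreOf 2 L ≠ ⊥ := by
  obtain ⟨R, hR, h1, rfl⟩ := h
  exact fun e => h1 (eq_bot_iff.mpr (e ▸ LAE.le_pCoreOf hR le_normalizer le_rfl))

theorem isTwoLocal_conj {L : Subgroup G} (h : IsTwoLocal L) (g : G) : IsTwoLocal (conjS g L) := by
  obtain ⟨R, hR, h1, rfl⟩ := h
  exact ⟨conjS g R, isPGroup_conjS hR g, fun e => h1 (conjS_eq_bot_iff.mp e), conjS_normalizer _ _⟩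

namespace Hyp

variable [Finite G] (h : Hyp G)
include h

omit [Finite G] in
theorem sc_of_isTwoLocal {L : Subgroup G} (hL : IsTwoLocal L) : Sc L := by
  obtain ⟨R, hR, h1, rfl⟩ := hL
  have h2 : IsCharP 2 (normalizer (R : Set G)) := isCharP_iff.mpr (h.hL.2 R hR h1)
  refine h2.le_pCoreOf ?_ le_rfl
  exact (centralizer_anti (LAE.le_pCoreOf hR le_normalizer le_rfl)).trans
    (centralizer_le_normalizer _)

theorem pCoreOf_ne_bot {L : Subgroup G} (hL : Sc L) : pCoreOf 2 L ≠ ⊥ := by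
  intro e
  unfold Sc at hL
  rw [e] at hL
  have h1 : (⊤ : Subgroup G) = ⊥ := by
    rw [eq_bot_iff]
    exact le_trans (fun x _ => by simp [mem_centralizer_iff]) hL
  have h2 := h.hL.1
  rw [← card_top, h1, card_bot] at h2
  simp at h2

omit [Finite G] in
theorem centralizer_le {P : Subgroup G} (hP : IsSylowIn 2 P ⊤) :
    centralizer (omegaZ 2 P : Set G) ≤ normalizer (P : Set G) := by
  obtain ⟨S, rfl⟩ := hP.exists_sylow_top
  exact h.hZ S

theorem ctx {L : Subgroup G} (hL : Sc L) : Ctx L := by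
  refine ⟨?_, fun S hS => ?_⟩
  · have := h.hN _ (isTwoLocal_normalizer (isPGroup_pCoreOf L) (h.pCoreOf_ne_bot hL))
    exact CfsgLib.Core.isSolvable_of_le (le_normalizer_pCoreOf (p := 2) L)
  · have := Fact.mk Nat.prime_two
    have hS' := hS.map L.subtype
    rw [← MonoidHom.range_eq_map, range_subtype] at hS'
    obtain ⟨P, hP, hSP⟩ := exists_isSylowIn_ge hS'.isPGroup le_top
    have h1 := hS'.eq_of_le (P ⊓ L) (hP.isPGroup.to_le inf_le_left) (le_inf hSP hS'.le) inf_le_right
    rw [← map_le_normalizer_map_iff L.subtype_injective, map_centralizer_vOf, ← h1]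
    refine le_normalizer_inf (inf_le_right.trans ?_) (inf_le_left.trans Subgroup.le_normalizer)
    exact (centralizer_anti (hL.omegaZ_le (hS'.pCoreOf_le.trans hSP))).trans (h.centralizer_le hP)

theorem loc {L T : Subgroup G} (hL : Sc L) (hT : IsSylowIn 2 T L) : Loc L T := ⟨h.ctx hL, hT⟩

theorem loc_of_mem {L T : Subgroup G} (hL : L ∈ jOvergroups T) : Loc L T :=
  h.loc hL.2.2 (isSylowTwoIn_iff.mp hL.1)

end Hyp

end CfsgLib.ZN
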