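import Mathlib
import Cfsg.Agent.Lib.ZN.Amb

/-!
The components `K` for which `J` is the Thompson subgroup of a Sylow `2`-subgroup of `N(W_K)`.
-/

set_option autoImplicit false

open Subgroup Cfsg CfsgLib.LAE CfsgLib.PLocal
open scoped commutatorElement

namespace CfsgLib.ZN

variable {G : Type*} [Group G]

structure JC0 (J K : Subgroup G) : Prop extends JC J K where
  syl0 : ∀ R : Subgroup G, IsPGroup 2 R → J ≤ R → R ≤ normalizer (wOf K : Set G) →
    thompsonSubgroupOf 2 R = J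

variable [Finite G]

theorem mem_jComponentsZero_iff {T K : Subgroup G} (hT : IsPGroup 2 T) :
    K ∈ jComponentsZero T ↔ JC0 (thompsonSubgroupOf 2 T) K := by
  constructor
  · rintro ⟨h1, h2⟩
    refine ⟨(isJComponent_iff hT).mp h1, fun R hR h3 h4 => ?_⟩
    obtain ⟨S, hS, hRS⟩ := exists_isSylowIn_ge hR h4
    have h5 := h2 S (h3.trans hRS) (isSylowTwoIn_iff.mpr hS)
    rw [← h5]
    exact thompsonSubgroupOf_eq_of_le hRS (h5 ▸ h3)
  · intro h
    exact ⟨(isJComponent_iff hT).mpr h.toJC, fun S h1 h2 =>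
      h.syl0 S (isSylowTwoIn_iff.mp h2).isPGroup h1 (isSylowTwoIn_iff.mp h2).le⟩

theorem JC0.conj {J K : Subgroup G} (h : JC0 J K) (g : G) : JC0 (conjS g J) (conjS g K) := by
  refine ⟨h.toJC.conj g, fun R hR h1 h2 => ?_⟩
  rw [← conjS_wOf, ← conjS_normalizer, le_conjS_iff] at h2
  rw [← h.syl0 _ (isPGroup_conjS hR g⁻¹) (conjS_le_iff.mp h1) h2, conjS_thompson, conjS_conjS_inv]

omit [Finite G] in
theorem JC.isTwoLocal {J K : Subgroup G} (h : JC J K) :
    IsTwoLocal (normalizer (wOf K : Set G)) :=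
  isTwoLocal_normalizer h.four.isPGroup h.four.ne_bot

theorem JC.commutator_le_wOf {J K V : Subgroup G} (h : JC J K) (hV : IsElementaryAbelian 2 V)
    (h1 : V ≤ normalizer (K : Set G)) (h2 : K ≤ normalizer (V : Set G))
    (h3 : V ≤ centralizer (pCoreOf 2 K : Set G)) : ⁅V, K⁆ ≤ wOf K := by
  have h4 := commutator_pResOf_commutator' (p := 2) (R := K) (elemAb_isPGroup hV) h2
  rw [h.res] at h4
  have h5 : ⁅V, K⁆ ≤ V := commutator_le_left_of_le_normalizer h2
  rw [← h4, wOf_def]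
  exact commutator_mono (le_omegaZ (elemAb_mono hV h5) (h.le_pCoreOf_of_isPGroup
    ((elemAb_isPGroup hV).to_le h5) (commutator_le_right_of_le_normalizer h1))
    (h5.trans h3)) le_rfl

namespace Hyp

variable (h : Hyp G) {J K L T : Subgroup G}
include h

theorem exists_loc_of_jc0 (hK : JC0 J K) :
    ∃ S, Loc (normalizer (wOf K : Set G)) S ∧ thompsonSubgroupOf 2 S = J := by
  obtain ⟨S, hS, hJS⟩ := exists_isSylowIn_ge hK.pJ hK.J_le_normalizer_wOf
  exact ⟨S, h.loc (h.sc_of_isTwoLocal hK.isTwoLocal) hS, hK.syl0 S hS.isPGroup hJS hS.le⟩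

theorem normalizer_eq (hK : JC0 J K) :
    normalizer (K : Set G) = normalizer (wOf K : Set G) := by
  obtain ⟨S, hS, rfl⟩ := h.exists_loc_of_jc0 hK
  refine le_antisymm (normalizer_le_normalizer_wOf K) fun g hg =>
    hS.mem_normalizer_of_inf hK.toJC (le_normalizer_wOf K) hg ?_
  rw [mem_normalizer_iff_conjS.mp hg, inf_idem]
  exact hK.four.ne_bot

theorem jc0_conj (hK : JC0 J K) {g : G} (hg : conjS g J ≤ normalizer (wOf K : Set G)) :
    JC0 (conjS g J) K := by
  have := Fact.mk Nat.prime_two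
  obtain ⟨S, hS, rfl⟩ := h.exists_loc_of_jc0 hK
  obtain ⟨l, hl, hle⟩ := hS.syl.exists_conj_le (isPGroup_conjS hK.pJ g) hg
  rw [← conjS_mul, conjS_le_iff] at hle
  have h1 := thompson_conjS_eq_of_le hle
  rw [← conjS_thompson, mul_inv_rev, conjS_mul] at h1
  have h2 := hK.conj l⁻¹
  rw [← h.normalizer_eq hK] at hl
  rw [mem_normalizer_iff_conjS.mp (inv_mem hl)] at h2
  rwa [← h1, conjS_conjS_inv]

theorem le_normalizer_wOf_of_subnormal (hL : Sc L) (hT : IsSylowIn 2 T L) (hK : JC J K)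
    (hKL : K ≤ L) (hs : SubnormalIn K (K ⊔ thompsonSubgroupOf 2 T)) :
    thompsonSubgroupOf 2 T ≤ normalizer (wOf K : Set G) := by
  have := Fact.mk Nat.prime_two
  set J₁ := thompsonSubgroupOf 2 T with hJ₁
  have hJp : IsPGroup 2 J₁ := isPGroup_thompson hT.isPGroup
  set X₀ := K ⊔ J₁ with hX₀
  have hX₀L : X₀ ≤ L := sup_le hKL ((thompsonSubgroupOf_le T).trans hT.le)
  set X₁ := X₀ ⊔ pCoreOf 2 L with hX₁
  have hX₁L : X₁ ≤ L := sup_le hX₀L (pCoreOf_le L)
  have hX₀₁ : X₀ ≤ X₁ := le_sup_left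
  have hKX₀ : K ≤ X₀ := le_sup_left
  have hJX₀ : J₁ ≤ X₀ := le_sup_right
  obtain ⟨T₁, hT₁, hJT₁⟩ := exists_isSylowIn_ge hJp (hJX₀.trans hX₀₁)
  have hl := h.loc (hL.of_between le_sup_right hX₁L) hT₁
  have hJ : thompsonSubgroupOf 2 T₁ = J₁ :=
    thompson_eq_of_le_sylow hT hT₁.isPGroup hJT₁ (hT₁.le.trans hX₁L)
  set V := omegaZ 2 (pCoreOf 2 X₁) with hV
  have hVe : IsElementaryAbelian 2 V := elemAb_omegaZ _
  have hX₁V : X₁ ≤ normalizer (V : Set G) := le_normalizer_omegaZ_of_le (le_normalizer_pCoreOf _)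
  have hQ₀₁ : pCoreOf 2 X₀ ≤ pCoreOf 2 X₁ := by
    have h1 := hX₀L.trans (le_normalizer_pCoreOf (p := 2) L)
    refine le_sup_left.trans (le_pCoreOf (Q := pCoreOf 2 X₀ ⊔ pCoreOf 2 L)
      (isPGroup_sup (isPGroup_pCoreOf _) (isPGroup_pCoreOf _) ((pCoreOf_le _).trans h1))
      (sup_le_sup_right (pCoreOf_le _) _) (sup_le (le_normalizer_sup (le_normalizer_pCoreOf _) h1)
        (le_sup_right.trans le_normalizer)))
  have hQ₀K : pCoreOf 2 X₀ ≤ normalizer (K : Set G) := by
    have := hs.le_normalizer_pResOf (isPGroup_pCoreOf (p := 2) X₀) (pCoreOf_le _) (le_normalizer_pCoreOf _)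
    rwa [hK.res] at this
  have hVQ₀ : V ≤ pCoreOf 2 X₀ := le_pCoreOf (elemAb_isPGroup hVe)
    ((hJ ▸ hl.v_le_thompson).trans hJX₀) (hX₀₁.trans hX₁V)
  have hOK : pCoreOf 2 K ≤ pCoreOf 2 X₁ := hs.pCoreOf_le.trans hQ₀₁
  have hKV : K ≤ normalizer (V : Set G) := (hKX₀.trans hX₀₁).trans hX₁V
  have hVW : ⁅V, K⁆ ≤ wOf K := hK.commutator_le_wOf hVe (hVQ₀.trans hQ₀K) hKV
    ((omegaZ_le_centralizer _).trans (centralizer_anti hOK))
  by_cases hc : K ≤ centralizer (V : Set G)
  · refine le_trans (fun j hj => ?_) (normalizer_le_normalizer_wOf K)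
    have h1 : ⁅J₁, K⁆ ≤ pCoreOf 2 X₀ := by
      refine le_trans (le_inf (CfsgLib.Core.commutator_le_of_le hJX₀ hKX₀) ?_)
        (inf_pCoreOf_le hX₀₁)
      exact (commutator_mono le_rfl (le_inf (hKX₀.trans hX₀₁) hc)).trans
        (hl.commutator_le hJp (hJX₀.trans hX₀₁))
    apply mem_normalizer_of_conjS_le
    rw [← (hK.conj j).res, ← hK.pResOf_sup (isPGroup_pCoreOf X₀) hQ₀K]
    refine pResOf_mono (conjS_le_iff_forall.mpr fun k hk => ?_)
    rw [hK.pResOf_sup (isPGroup_pCoreOf X₀) hQ₀K] at hk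
    have := mul_mem (mem_sup_right (S := K) (h1 (commutator_mem_commutator hj hk)))
      (mem_sup_left hk)
    convert this using 1
    simp only [commutatorElement_def]; group
  have hVW' : ⁅V, K⁆ = wOf K := (hK.eq_bot_or_eq hVW
    (normalizer_commutator_ge_right V K)).resolve_left fun e =>
      hc (le_centralizer_iff.mp (commutator_eq_bot_iff_le_centralizer.mp e))
  have hnorm : ∀ K', JC (thompsonSubgroupOf 2 T₁) K' → K' ≤ X₁ →
      K ≤ normalizer (K' : Set G) := by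
    intro K' hK' hK'X
    obtain ⟨d, hd, -, hd'⟩ := hK.exists_odd
    have hO := hOK.trans (hl.pCoreOf_le_normalizer hK' hK'X)
    rw [← hK.zpowers_sup_pCoreOf hd hd']
    refine sup_le (zpowers_le.mpr ?_) hO
    by_contra hn
    have hdX : d ∈ X₁ := hX₀₁ (hKX₀ hd)
    have hn2 : d * d ∉ normalizer (K' : Set G) := fun e => hn
      (mem_of_pow_mem_of_pow_mem (a := 2) (b := 3) (by norm_num) (by rwa [pow_two])
        (hO (hK.pow_three_mem hd)))
    have hcent : ∀ x ∈ X₁, x ∉ normalizer (K' : Set G) → ∀ v ∈ wOf K',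
        x * v * x⁻¹ ∈ centralizer (K' : Set G) := fun x hx hxn v hv => by
      refine le_centralizer_iff.mp (hl.jc_cent (hl.jc_conj hK' hK'X hx)
        (conjS_le_of_le_of_mem hK'X hx) hK' hK'X
        fun e => hxn (mem_normalizer_iff_conjS.mpr e)) ?_
      rw [← conjS_wOf]; exact conj_mem_conjS.mpr hv
    have hone : ∀ v ∈ wOf K', v ∈ centralizer (K' : Set G) → v = 1 := fun v hv hv' => by
      rw [← mem_bot, ← hK'.inf_centralizer_eq_bot]; exact mem_inf.mpr ⟨hv, hv'⟩
    have hW'V := hl.wOf_le hK' hK'X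
    let φ : wOf K' → wOf K := fun v => ⟨⁅(v : G)⁻¹, d⁆,
      hVW (commutator_mem_commutator (inv_mem (hW'V v.2)) hd)⟩
    have hφ : Function.Injective φ := by
      intro u v huv
      have h1 : ⁅(u : G)⁻¹, d⁆ = ⁅(v : G)⁻¹, d⁆ := congrArg Subtype.val huv
      have h2 : (v : G) * (u : G)⁻¹ = d * ((v : G) * (u : G)⁻¹) * d⁻¹ := by
        simp only [commutatorElement_def, inv_inv] at h1
        calc (v : G) * (u : G)⁻¹ = v * ((u : G)⁻¹ * d * u * d⁻¹) * (d * (u : G)⁻¹ * d⁻¹) := by group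
          _ = _ := by rw [h1]; group
      have h3 := hcent d hdX hn _ (mul_mem v.2 (inv_mem u.2))
      rw [← h2] at h3
      exact Subtype.ext (mul_inv_eq_one.mp (hone _ (mul_mem v.2 (inv_mem u.2)) h3)).symm
    have hφ' := hφ.bijective_of_nat_card_le (by rw [hK.four.card, hK'.four.card])
    obtain ⟨v, hv, hv1⟩ := (bot_or_exists_ne_one (wOf K')).resolve_left hK'.four.ne_bot
    obtain ⟨u, hu⟩ := hφ'.2 ⟨d * ⁅v⁻¹, d⁆ * d⁻¹,
      conj_mem_of_mem_normalizer (le_normalizer_wOf K hd) (φ ⟨v, hv⟩).2⟩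
    have h1 : ⁅(u : G)⁻¹, d⁆ = d * ⁅v⁻¹, d⁆ * d⁻¹ := congrArg Subtype.val hu
    have h2 : (u : G) = 1 := by
      refine hone u u.2 ?_
      have := mul_mem (hcent d hdX hn _ u.2) (inv_mem (mul_mem (hcent d hdX hn _ (inv_mem hv))
        (hcent _ (mul_mem hdX hdX) hn2 _ hv)))
      convert this using 1
      calc (u : G) = d * u * d⁻¹ * (⁅(u : G)⁻¹, d⁆)⁻¹ := by
            simp only [commutatorElement_def]; group
        _ = _ := by rw [h1]; simp only [commutatorElement_def]; group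
    rw [h2] at h1
    apply hv1
    refine hone v hv ?_
    have h3 := hcent d hdX hn v hv
    have h4 : d * v * d⁻¹ = v := by
      calc d * v * d⁻¹ = v * d⁻¹ * (d * ⁅v⁻¹, d⁆ * d⁻¹) * d := by
            simp only [commutatorElement_def]; group
        _ = v := by rw [← h1]; simp
    rwa [h4] at h3
  by_cases hall : ∀ K', JC (thompsonSubgroupOf 2 T₁) K' → K' ≤ X₁ →
      K ≤ centralizer (wOf K' : Set G)
  · set D := V ⊓ centralizer (thompsonSubgroupOf 2 X₁ : Set G) with hD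
    have hVD : V ≤ normalizer (D : Set G) := le_normalizer_of_le_centralizer
      ((elemAb_le_centralizer hVe).trans (centralizer_anti inf_le_left))
    have h1 : V ≤ CfsgLib.Core.commutatorStabilizer K D := by
      refine hl.v_le_of (CfsgLib.Core.le_commutatorStabilizer_iff.mpr ⟨le_normalizer, ?_⟩)
        fun K' hK' hK'X => CfsgLib.Core.le_commutatorStabilizer_iff.mpr
          ⟨(hl.wOf_le hK' hK'X).trans hVD, ?_⟩
      · exact commutator_le_left_of_le_normalizer (le_normalizer_inf hKV (le_normalizer_centralizer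
          ((hKX₀.trans hX₀₁).trans (le_normalizer_thompson X₁))))
      · rw [commutator_eq_bot_iff_le_centralizer.mpr (le_centralizer_iff.mp (hall K' hK' hK'X))]
        exact bot_le
    have h2 := (CfsgLib.Core.le_commutatorStabilizer_iff.mp h1).2
    rw [hVW'] at h2
    rw [← hJ]
    exact le_normalizer_of_le_centralizer
      (hl.thompson_le.trans (le_centralizer_iff.mp (h2.trans inf_le_right)))
  · push Not at hall
    obtain ⟨K', hK', hK'X, hc'⟩ := hall
    have h1 : wOf K' = wOf K := by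
      refine hK.four.eq_of_le hK'.four ?_
      rw [← hK'.four.commutator_eq hK.res
        ((hnorm K' hK' hK'X).trans (normalizer_le_normalizer_wOf K')) hc']
      exact (commutator_mono (hl.wOf_le hK' hK'X) le_rfl).trans hVW
    rw [← h1, ← hJ]
    exact hK'.J_le_normalizer_wOf

theorem jc0_of_subnormal (hL : Sc L) (hT : IsSylowIn 2 T L) {g : G}
    (hK : JC0 (conjS g (thompsonSubgroupOf 2 T)) K)
    (hKL : K ≤ L) (hs : SubnormalIn K (K ⊔ thompsonSubgroupOf 2 T)) :
    JC0 (thompsonSubgroupOf 2 T) K := by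
  have := h.jc0_conj hK (g := g⁻¹) (by
    rw [conjS_inv_conjS]; exact h.le_normalizer_wOf_of_subnormal hL hT hK.toJC hKL hs)
  rwa [conjS_inv_conjS] at this

end Hyp

end CfsgLib.ZN
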