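import Mathlib
import Cfsg.Agent.Lib.ZN.Zero
import Cfsg.Agent.Lib.SolvStruct.Subnormal

/-!
Maximal straddling `2`-subgroups.
-/

set_option autoImplicit false

open Subgroup Cfsg CfsgLib.LAE CfsgLib.PLocal
open scoped commutatorElement Pointwise

namespace CfsgLib.ZN

variable {G : Type*} [Group G] [Finite G]

omit [Finite G] in
theorem maxElemAbelianOrder_eq {T A : Subgroup G} (hA : A ∈ maxElemIn 2 T) :
    maxElemAbelianOrder T = Nat.card A := by
  have : ((fun A : Subgroup T => Nat.card A) '' maxElementaryAbelianSubgroups 2 T) =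
      {Nat.card A} := by
    ext n
    constructor
    · rintro ⟨B, hB, rfl⟩
      have := card_eq_of_mem_maxElemIn (map_subtype_mem_maxElemIn.mpr hB) hA
      rwa [card_map_subtype] at this
    · rintro rfl
      exact ⟨A.subgroupOf T, subgroupOf_mem_maxElem hA, card_subgroupOf (mem_maxElemIn.mp hA).1⟩
  rw [maxElemAbelianOrder, this, csSup_singleton]

theorem maxElemAbelianOrder_conjS (g : G) (T : Subgroup G) :
    maxElemAbelianOrder (conjS g T) = maxElemAbelianOrder T := by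
  obtain ⟨A, hA⟩ := maxElemIn_nonempty (p := 2) T
  rw [maxElemAbelianOrder_eq hA, maxElemAbelianOrder_eq (conjS_mem_maxElemIn hA g), card_conjS]

theorem eq_of_inf_normalizer_le {H K : Subgroup G} (hK : IsPGroup 2 K) (h1 : H ≤ K)
    (h2 : K ⊓ normalizer (H : Set G) ≤ H) : H = K := by
  have := Fact.mk Nat.prime_two
  by_contra hne
  exact (CfsgLib.Core.lt_inf_normalizer_of_isPGroup hK (lt_of_le_of_ne h1 hne)).not_ge h2

theorem thompson_ne_bot {T : Subgroup G} (hT : IsPGroup 2 T) (h : T ≠ ⊥) :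
    thompsonSubgroupOf 2 T ≠ ⊥ := by
  have := Fact.mk Nat.prime_two
  obtain ⟨A, hA⟩ := maxElemIn_nonempty (p := 2) T
  exact fun e => omegaZ_ne_bot hT h (eq_bot_iff.mpr (e ▸
    (omegaOne_center_le_of_mem_maxElemIn hA).trans (le_thompsonSubgroupOf hA)))

omit [Finite G] in
theorem conjS_mem_straddling {M T : Subgroup G} (hT : T ∈ straddlingTwoSubgroups M) (g : G) :
    conjS g T ∈ straddlingTwoSubgroups (conjS g M) := by
  obtain ⟨h1, h2, h3, L, h4, h5, h6⟩ := hT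
  exact ⟨isPGroup_conjS h1 g, fun e => h2 (conjS_eq_bot_iff.mp e), conjS_mono h3, conjS g L,
    isTwoLocal_conj h4 g, conjS_mono h5, fun e => h6 (conjS_le_conjS_iff.mp e)⟩

theorem conjS_mem_maxStraddling {M T : Subgroup G} (hT : T ∈ maxStraddlingTwoSubgroups M) (g : G) :
    conjS g T ∈ maxStraddlingTwoSubgroups (conjS g M) := by
  refine ⟨conjS_mem_straddling hT.1 g, fun R hR => ?_⟩
  have h1 := conjS_mem_straddling hR g⁻¹
  rw [conjS_inv_conjS] at h1
  have h2 := hT.2 _ h1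
  rw [maxElemAbelianOrder_conjS, ← conjS_thompson, card_conjS, card_conjS] at h2
  rwa [maxElemAbelianOrder_conjS, ← conjS_thompson, card_conjS, card_conjS]

theorem exists_mem_maxStraddling {M : Subgroup G} (h : (straddlingTwoSubgroups M).Nonempty) :
    (maxStraddlingTwoSubgroups M).Nonempty := by
  obtain ⟨T, hT, hmax⟩ := Set.exists_max_image (straddlingTwoSubgroups M)
    (fun T => toLex (maxElemAbelianOrder T,
      toLex (Nat.card (thompsonSubgroupOf 2 T), Nat.card T))) (Set.toFinite _) h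
  refine ⟨T, hT, fun R hR => ?_⟩
  have := hmax R hR
  simp only [Prod.Lex.toLex_le_toLex] at this
  omega

theorem max_thompson_eq {M T R : Subgroup G} (hT : T ∈ maxStraddlingTwoSubgroups M)
    (hR : R ∈ straddlingTwoSubgroups M) (hle : thompsonSubgroupOf 2 T ≤ R) :
    thompsonSubgroupOf 2 R = thompsonSubgroupOf 2 T ∧ Nat.card R ≤ Nat.card T := by
  obtain ⟨h1, h2⟩ := hT.2 R hR
  obtain ⟨A, hA⟩ := maxElemIn_nonempty (p := 2) T
  obtain ⟨B, hB⟩ := maxElemIn_nonempty (p := 2) R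
  rw [maxElemAbelianOrder_eq hA, maxElemAbelianOrder_eq hB] at h1 h2
  have h3 := (mem_maxElemIn.mp hB).2.2 A ((le_thompsonSubgroupOf hA).trans hle)
    (mem_maxElemIn.mp hA).2.1
  obtain ⟨h4, h5⟩ := h2 (le_antisymm h1 h3)
  have h6 : thompsonSubgroupOf 2 T ≤ thompsonSubgroupOf 2 R :=
    thompsonSubgroupOf_le_iff.mpr fun A' hA' => le_thompsonSubgroupOf
      (mem_maxElemIn_of_card_le hB ((le_thompsonSubgroupOf hA').trans hle)
        (mem_maxElemIn.mp hA').2.1 (card_eq_of_mem_maxElemIn hA hA' ▸ h1))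
  have h7 := CfsgLib.Core.eq_of_le_of_card_le h6 h4
  exact ⟨h7.symm, h5 (by rw [h7])⟩

/-- The setting of the amalgam argument. -/
structure Str (S M T : Subgroup G) : Prop where
  hyp : Hyp G
  syl : IsSylowIn 2 S ⊤
  hM : normalizer (thompsonSubgroupOf 2 S : Set G) ≤ M
  hT : T ∈ maxStraddlingTwoSubgroups M

namespace Str

variable {S M T K L : Subgroup G} (h : Str S M T)
include h

omit [Finite G] in
theorem isPGroup : IsPGroup 2 T := h.hT.1.1

omit [Finite G] in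
theorem ne_bot : T ≠ ⊥ := h.hT.1.2.1

omit [Finite G] in
theorem le : T ≤ M := h.hT.1.2.2.1

omit [Finite G] in
theorem S_le : S ≤ M := (le_normalizer_thompson S).trans h.hM

theorem conj {g : G} (hg : g ∈ M) : Str S M (conjS g T) := by
  have := conjS_mem_maxStraddling h.hT g
  rw [conjS_eq_of_mem hg] at this
  exact ⟨h.hyp, h.syl, h.hM, this⟩

theorem exists_conj_le : ∃ g ∈ M, conjS g T ≤ S := by
  have := Fact.mk Nat.prime_two
  exact (h.syl.mono h.S_le le_top).exists_conj_le h.isPGroup h.le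

theorem J_ne_bot : thompsonSubgroupOf 2 T ≠ ⊥ := thompson_ne_bot h.isPGroup h.ne_bot

theorem normalizer_le : normalizer (thompsonSubgroupOf 2 T : Set G) ≤ M := by
  have := Fact.mk Nat.prime_two
  by_contra hn
  obtain ⟨g, hg, hP⟩ := (h.syl.mono h.S_le le_top).exists_le_conj h.isPGroup h.le
  have hPM := (h.syl.mono h.S_le le_top).conj_of_mem hg
  have h1 : conjS g S ⊓ normalizer (T : Set G) ∈ straddlingTwoSubgroups M :=
    ⟨hPM.isPGroup.to_le inf_le_left, fun e => h.ne_bot (eq_bot_iff.mpr (e ▸ le_inf hP le_normalizer)),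
      inf_le_left.trans hPM.le, _, isTwoLocal_normalizer (isPGroup_thompson h.isPGroup) h.J_ne_bot,
      inf_le_right.trans (normalizer_le_normalizer_thompsonSubgroupOf T), hn⟩
  have h2 := (max_thompson_eq h.hT h1 ((thompsonSubgroupOf_le T).trans (le_inf hP le_normalizer))).2
  have h3 := eq_of_inf_normalizer_le hPM.isPGroup hP
    (CfsgLib.Core.eq_of_le_of_card_le (le_inf hP le_normalizer) h2).ge
  apply hn
  rw [h3, ← conjS_thompson, ← conjS_normalizer]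
  exact conjS_le_of_le_of_mem h.hM hg

theorem of_isPGroup (hL : IsTwoLocal L) (hLM : ¬ L ≤ M) {R : Subgroup G} (hR : IsPGroup 2 R)
    (hRL : R ≤ L) (hJ : thompsonSubgroupOf 2 T ≤ R) :
    thompsonSubgroupOf 2 R = thompsonSubgroupOf 2 T ∧ R ∈ straddlingTwoSubgroups M ∧
      Nat.card R ≤ Nat.card T := by
  have hJ' : thompsonSubgroupOf 2 T ≤ R ⊓ normalizer (thompsonSubgroupOf 2 T : Set G) :=
    le_inf hJ le_normalizer
  have h1 : R ⊓ normalizer (thompsonSubgroupOf 2 T : Set G) ∈ straddlingTwoSubgroups M :=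
    ⟨hR.to_le inf_le_left, fun e => h.J_ne_bot (eq_bot_iff.mpr (e ▸ hJ')),
      inf_le_right.trans h.normalizer_le, L, hL, inf_le_left.trans hRL, hLM⟩
  obtain ⟨h2, h3⟩ := max_thompson_eq h.hT h1 hJ'
  have h4 := eq_of_inf_normalizer_le hR (inf_le_left : R ⊓ _ ≤ R) (le_inf inf_le_left
    (inf_le_right.trans (h2 ▸ normalizer_le_normalizer_thompsonSubgroupOf _)))
  rw [h4] at h1 h2 h3
  exact ⟨h2, h1, h3⟩

theorem isSylowIn (hL : IsTwoLocal L) (hLM : ¬ L ≤ M) (hTL : T ≤ L) : IsSylowIn 2 T L := by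
  obtain ⟨R, hR, hTR⟩ := exists_isSylowIn_ge h.isPGroup hTL
  rwa [CfsgLib.Core.eq_of_le_of_card_le hTR
    (h.of_isPGroup hL hLM hR.isPGroup hR.le ((thompsonSubgroupOf_le T).trans hTR)).2.2]

theorem not_le_pCoreOf (hL : IsTwoLocal L) (hLM : ¬ L ≤ M) :
    ¬ thompsonSubgroupOf 2 T ≤ pCoreOf 2 L := fun e => by
  apply hLM
  refine le_trans ?_ h.normalizer_le
  rw [← (h.of_isPGroup hL hLM (isPGroup_pCoreOf L) (pCoreOf_le L) e).1]
  exact (le_normalizer_pCoreOf L).trans (normalizer_le_normalizer_thompsonSubgroupOf _)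

theorem exists_loc (hL : IsTwoLocal L) (hLM : ¬ L ≤ M) (hJ : thompsonSubgroupOf 2 T ≤ L) :
    ∃ R, Loc L R ∧ thompsonSubgroupOf 2 R = thompsonSubgroupOf 2 T := by
  obtain ⟨R, hR, hTR⟩ := exists_isSylowIn_ge (isPGroup_thompson h.isPGroup) hJ
  exact ⟨R, h.hyp.loc (h.hyp.sc_of_isTwoLocal hL) hR,
    (h.of_isPGroup hL hLM hR.isPGroup hR.le hTR).1⟩

theorem loc (hL : IsTwoLocal L) (hLM : ¬ L ≤ M) (hTL : T ≤ L) : Loc L T :=
  h.hyp.loc (h.hyp.sc_of_isTwoLocal hL) (h.isSylowIn hL hLM hTL)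

theorem jc0 (hK : JC (thompsonSubgroupOf 2 T) K) (hKM : ¬ K ≤ M) :
    JC0 (thompsonSubgroupOf 2 T) K :=
  ⟨hK, fun _ hR h1 h2 => (h.of_isPGroup hK.isTwoLocal
    (fun e => hKM ((le_normalizer_wOf K).trans e)) hR h2 h1).1⟩

theorem exists_jc (hL : IsTwoLocal L) (hLM : ¬ L ≤ M) (hJ : thompsonSubgroupOf 2 T ≤ L) :
    ∃ K, JC (thompsonSubgroupOf 2 T) K ∧ K ≤ L ∧ ¬ K ≤ M := by
  obtain ⟨R, hR, e⟩ := h.exists_loc hL hLM hJ
  by_contra hne
  push Not at hne
  rw [← e] at hne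
  exact hLM (hR.le_of (inf_le_right.trans (e ▸ h.normalizer_le)) hne)

theorem exists_outside : ∃ K, JC (thompsonSubgroupOf 2 T) K ∧ ¬ K ≤ M ∧ pCoreOf 2 (K ⊔ T) ≠ ⊥ := by
  obtain ⟨-, -, -, L, hL, hTL, hLM⟩ := h.hT.1
  obtain ⟨K, hK, hKL, hKM⟩ := h.exists_jc hL hLM ((thompsonSubgroupOf_le T).trans hTL)
  refine ⟨K, hK, hKM, fun e => isTwoLocal_pCoreOf_ne_bot hL (eq_bot_iff.mpr (e ▸ ?_))⟩
  exact pCoreOf_le_pCoreOf_of_le (sup_le hKL hTL)
    ((h.isSylowIn hL hLM hTL).pCoreOf_le.trans le_sup_right)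

theorem subnormalIn (hK : JC (thompsonSubgroupOf 2 T) K) (hL : IsTwoLocal L) (hLM : ¬ L ≤ M)
    (hKL : K ≤ L) (hJ : thompsonSubgroupOf 2 T ≤ L) : SubnormalIn K L := by
  obtain ⟨R, hR, e⟩ := h.exists_loc hL hLM hJ
  exact hR.subnormalIn (e ▸ hK) hKL

theorem exists_greatest (hK : JC (thompsonSubgroupOf 2 T) K) (hKM : ¬ K ≤ M) :
    ∃ L, IsTwoLocal L ∧ K ⊔ thompsonSubgroupOf 2 T ≤ L ∧
      ∀ L', IsTwoLocal L' → K ⊔ thompsonSubgroupOf 2 T ≤ L' → L' ≤ L := by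
  have hK0 := h.jc0 hK hKM
  set J := thompsonSubgroupOf 2 T with hJ
  have hnM : ∀ V, K ⊔ J ≤ V → ¬ V ≤ M := fun V hV e => hKM ((le_sup_left.trans hV).trans e)
  have hjc : ∀ W, IsTwoLocal W → K ⊔ J ≤ W → ∀ g : G, SubnormalIn (conjS g K) W →
      JC J (conjS g K) := by
    intro W hW hW' g hs
    obtain ⟨R, hR, e⟩ := h.exists_loc hW (hnM W hW') (le_sup_right.trans hW')
    rw [hJ, ← e]
    refine (h.hyp.jc0_of_subnormal (g := g) (h.hyp.sc_of_isTwoLocal hW) hR.syl ?_ hs.le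
      (hs.mono le_sup_left (sup_le hs.le ((thompsonSubgroupOf_le R).trans hR.syl.le)))).toJC
    rw [e]; exact hK0.conj g
  obtain ⟨L, hL, hmax⟩ := CfsgLib.SolvStruct.exists_greatest_of_subnormal_conjugates K
    {U | IsTwoLocal U ∧ K ⊔ J ≤ U} ⟨_, hK.isTwoLocal, hK.sup_le_normalizer_wOf⟩
    (fun V => {B | (∃ g : G, B = MulAut.conj g • K) ∧ B ≤ V ∧ (B.subgroupOf V).IsSubnormal})
    (fun _ _ => Iff.rfl) (by
      rintro V ⟨hV, hV'⟩ W ⟨hW, hW'⟩ _ ⟨⟨g, rfl⟩, h1, h2⟩ h3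
      refine ⟨⟨g, rfl⟩, h3, ?_⟩
      rw [← conjS_eq_smul] at h1 h2 h3 ⊢
      exact (h.subnormalIn (hjc W hW hW' g (subnormalIn_iff.mpr ⟨h1, h2⟩)) hV (hnM V hV') h3
        (le_sup_right.trans hV')).isSubnormal) (by
      rintro V ⟨hV, hV'⟩ W ⟨hW, hW'⟩
      have hKV := h.subnormalIn hK hV (hnM V hV') (le_sup_left.trans hV') (le_sup_right.trans hV')
      have hKW := h.subnormalIn hK hW (hnM W hW') (le_sup_left.trans hW') (le_sup_right.trans hW')
      set Y := sSup ({B | (∃ g : G, B = MulAut.conj g • K) ∧ B ≤ V ∧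
        (B.subgroupOf V).IsSubnormal} ∩ {B | (∃ g : G, B = MulAut.conj g • K) ∧ B ≤ W ∧
        (B.subgroupOf W).IsSubnormal}) with hY
      have hKY : K ≤ Y := le_sSup ⟨⟨⟨1, by simp⟩, hKV.le, hKV.isSubnormal⟩,
        ⟨⟨1, by simp⟩, hKW.le, hKW.isSubnormal⟩⟩
      have hYV : Y ≤ V := sSup_le fun B hB => hB.1.2.1
      have hJY : J ≤ normalizer (Y : Set G) := by
        intro j hj
        apply mem_normalizer_of_conjS_le
        rw [conjS_le_iff]
        refine sSup_le ?_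
        rintro _ hB
        obtain ⟨⟨⟨g, rfl⟩, h1, h2⟩, -⟩ := id hB
        rw [← conjS_eq_smul] at h1 h2 hB ⊢
        rw [← conjS_le_iff, mem_normalizer_iff_conjS.mp
          ((hjc V hV hV' g (subnormalIn_iff.mpr ⟨h1, h2⟩)).J_le_normalizer hj)]
        exact le_sSup hB
      refine ⟨normalizer (pCoreOf 2 Y : Set G), ⟨isTwoLocal_normalizer (isPGroup_pCoreOf Y) ?_,
        (sup_le (hKY.trans le_normalizer) hJY).trans (normalizer_le_normalizer_pCoreOf Y)⟩,
        normalizer_le_normalizer_pCoreOf Y⟩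
      exact fun e => hK.four.ne_bot (eq_bot_iff.mpr (e ▸ (wOf_le_pCoreOf K).trans
        (hKV.mono hKY hYV).pCoreOf_le)))
  exact ⟨L, hL.1, hL.2, fun L' h1 h2 => hmax L' ⟨h1, h2⟩⟩

end Str

end CfsgLib.ZN
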