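import Mathlib
import Cfsg.Agent.Lib.ZN.Max

/-!
The subgroup `Ω₁(Z(J(T)))` for a component lying in a unique maximal `2`-local subgroup.
-/

set_option autoImplicit false

open Subgroup Cfsg CfsgLib.LAE CfsgLib.PLocal
open scoped commutatorElement

namespace CfsgLib.ZN

variable {G : Type*} [Group G]

theorem eq_of_card_two {U : Subgroup G} (hU : Nat.card U = 2) {u v : G} (hu : u ∈ U) (hv : v ∈ U)
    (hu1 : u ≠ 1) (hv1 : v ≠ 1) : u = v := by
  obtain ⟨y, -, hy⟩ := (Nat.card_eq_two_iff' (1 : U)).mp hU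
  exact congrArg Subtype.val ((hy ⟨u, hu⟩ fun e => hu1 (congrArg Subtype.val e)).trans
    (hy ⟨v, hv⟩ fun e => hv1 (congrArg Subtype.val e)).symm)

theorem le_of_card_two {U Y : Subgroup G} (hU : Nat.card U = 2) {u : G} (hu : u ∈ U)
    (hu1 : u ≠ 1) (huY : u ∈ Y) : U ≤ Y := fun v hv => by
  by_cases h : v = 1
  · rw [h]; exact one_mem _
  · rwa [eq_of_card_two hU hv hu h hu1]

theorem exists_ne_one_of_card_two {U : Subgroup G} (hU : Nat.card U = 2) : ∃ u ∈ U, u ≠ 1 :=
  (bot_or_exists_ne_one U).resolve_left fun e => by rw [e] at hU; simp at hU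

variable [Finite G]

theorem eq_of_mem_card_two {U Y : Subgroup G} (hU : Nat.card U = 2) (hY : Nat.card Y = 2) {u : G}
    (hu : u ∈ U) (hu1 : u ≠ 1) (huY : u ∈ Y) : U = Y :=
  CfsgLib.Core.eq_of_le_of_card_le (le_of_card_two hU hu hu1 huY) (by rw [hU, hY])

theorem IsFour.sup_eq {W A B : Subgroup G} (hW : IsFour W) (hA : A ≤ W) (hB : B ≤ W)
    (hA2 : Nat.card A = 2) (hB2 : Nat.card B = 2) (hne : A ≠ B) : A ⊔ B = W := by
  rcases hW.cases_le (sup_le hA hB) with e | e | e
  · rw [le_bot_iff.mp (le_sup_left.trans e.le : A ≤ ⊥)] at hA2; simp at hA2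
  · exact absurd ((CfsgLib.Core.eq_of_le_of_card_le le_sup_left (by rw [e, hA2])).trans
      (CfsgLib.Core.eq_of_le_of_card_le le_sup_right (by rw [e, hB2])).symm) hne
  · exact e

/-- A four-group has only three subgroups of order two. -/
theorem IsFour.third {W A B X Y : Subgroup G} (hW : IsFour W) (hA : A ≤ W) (hB : B ≤ W)
    (hA2 : Nat.card A = 2) (hB2 : Nat.card B = 2) (hne : A ≠ B) (hX : X ≤ W) (hY : Y ≤ W)
    (hX2 : Nat.card X = 2) (hY2 : Nat.card Y = 2) (hXA : X ≠ A) (hXB : X ≠ B) (hYA : Y ≠ A)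
    (hYB : Y ≠ B) : X = Y := by
  obtain ⟨a, ha, ha1⟩ := exists_ne_one_of_card_two hA2
  obtain ⟨b, hb, hb1⟩ := exists_ne_one_of_card_two hB2
  have key : ∀ X ≤ W, Nat.card X = 2 → X ≠ A → X ≠ B → a * b ∈ X ∧ a * b ≠ 1 := by
    intro X hX hX2 hXA hXB
    obtain ⟨x, hx, hx1⟩ := exists_ne_one_of_card_two hX2
    have h1 := hX hx
    rw [← hW.sup_eq hA hB hA2 hB2 hne] at h1
    obtain ⟨u, hu, v, hv, rfl⟩ := (mem_sup_iff_of_left_le_normalizer (le_normalizer_of_le_centralizer
      ((hA.trans hW.le_centralizer).trans (centralizer_anti hB)))).mp h1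
    have hu1 : u ≠ 1 := by
      rintro rfl
      exact hXB (eq_of_mem_card_two hX2 hB2 hx hx1 (by simpa using hv))
    have hv1 : v ≠ 1 := by
      rintro rfl
      exact hXA (eq_of_mem_card_two hX2 hA2 hx hx1 (by simpa using hu))
    rw [← eq_of_card_two hA2 hu ha hu1 ha1, ← eq_of_card_two hB2 hv hb hv1 hb1]
    exact ⟨hx, hx1⟩
  exact eq_of_mem_card_two hX2 hY2 (key X hX hX2 hXA hXB).1 (key X hX hX2 hXA hXB).2
    (key Y hY hY2 hYA hYB).1

/-- `L` is the greatest `2`-local subgroup containing the component `K` and `J(T)`. -/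
structure Big (T K L : Subgroup G) : Prop where
  hyp : Hyp G
  jc : JC (thompsonSubgroupOf 2 T) K
  two : IsTwoLocal L
  KL : K ≤ L
  syl : IsSylowIn 2 T L
  great : ∀ L', IsTwoLocal L' → K ⊔ thompsonSubgroupOf 2 T ≤ L' → L' ≤ L

theorem Str.exists_big {S M T K : Subgroup G} (h : Str S M T)
    (hK : JC (thompsonSubgroupOf 2 T) K) (hKM : ¬ K ≤ M) (hO : pCoreOf 2 (K ⊔ T) ≠ ⊥) :
    ∃ L, Big T K L := by
  obtain ⟨L, h1, h2, h3⟩ := h.exists_greatest hK hKM
  have h4 := le_normalizer_pCoreOf (p := 2) (K ⊔ T)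
  exact ⟨L, h.hyp, hK, h1, le_sup_left.trans h2, h.isSylowIn h1
    (fun e => hKM ((le_sup_left.trans h2).trans e)) ((le_sup_right.trans h4).trans
      (h3 _ (isTwoLocal_normalizer (isPGroup_pCoreOf _) hO)
        ((sup_le_sup_left (thompsonSubgroupOf_le T) K).trans h4))), h3⟩

namespace Big

variable {S T K L K' L' : Subgroup G} (h : Big T K L)
include h

omit [Finite G] in
theorem sc : Sc L := h.hyp.sc_of_isTwoLocal h.two

theorem loc : Loc L T := h.hyp.loc h.sc h.syl

omit [Finite G] in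
theorem sup_le : K ⊔ thompsonSubgroupOf 2 T ≤ L :=
  _root_.sup_le h.KL ((thompsonSubgroupOf_le T).trans h.syl.le)

omit [Finite G] in
theorem isMaximal : IsMaximalTwoLocal L :=
  ⟨h.two, fun N h1 h2 => le_antisymm (h.great N h1 (h.sup_le.trans h2)) h2⟩

omit [Finite G] in
theorem eq_of_isMaximal (hL : IsMaximalTwoLocal L') (h1 : K ⊔ thompsonSubgroupOf 2 T ≤ L') :
    L' = L := (hL.2 L h.two (h.great L' hL.1 h1)).symm

theorem conj (g : G) : Big (conjS g T) (conjS g K) (conjS g L) := by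
  refine ⟨h.hyp, conjS_thompson g T ▸ h.jc.conj g, isTwoLocal_conj h.two g, conjS_mono h.KL,
    h.syl.conj g, fun N h1 h2 => ?_⟩
  rw [← conjS_thompson, ← conjS_sup, conjS_le_iff] at h2
  exact le_conjS_iff.mpr (h.great _ (isTwoLocal_conj h1 _) h2)

omit [Finite G] in
theorem normalizer_le {R : Subgroup G} (hR : IsPGroup 2 R) (h1 : R ≠ ⊥)
    (h2 : K ⊔ thompsonSubgroupOf 2 T ≤ normalizer (R : Set G)) : normalizer (R : Set G) ≤ L :=
  h.great _ (isTwoLocal_normalizer hR h1) h2

omit [Finite G] in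
theorem normalizer_pCoreOf_le : normalizer (pCoreOf 2 L : Set G) ≤ L :=
  h.normalizer_le (isPGroup_pCoreOf L) (isTwoLocal_pCoreOf_ne_bot h.two)
    (h.sup_le.trans (le_normalizer_pCoreOf L))

omit [Finite G] in
theorem normalizer_self_le : normalizer (L : Set G) ≤ L :=
  (normalizer_le_normalizer_pCoreOf L).trans h.normalizer_pCoreOf_le

theorem not_conj_le {g : G} (hg : g ∈ normalizer (thompsonSubgroupOf 2 T : Set G)) (hgL : g ∉ L) :
    ¬ conjS g K ≤ L := fun e => by
  have h1 := (h.conj g).great L h.two (by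
    rw [← conjS_thompson, mem_normalizer_iff_conjS.mp hg]
    exact _root_.sup_le e (le_sup_right.trans h.sup_le))
  exact hgL (h.normalizer_self_le (mem_normalizer_iff_conjS.mpr
    (CfsgLib.Core.eq_of_le_of_card_le h1 (card_conjS g L).le).symm))

omit [Finite G] in
theorem normalizer_le_of_le {R : Subgroup G}
    (hR : R ≤ omegaZ 2 (thompsonSubgroupOf 2 T) ⊓ centralizer (K : Set G)) (h1 : R ≠ ⊥) :
    normalizer (R : Set G) ≤ L :=
  h.normalizer_le ((elemAb_isPGroup (elemAb_omegaZ _)).to_le (hR.trans inf_le_left)) h1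
    (le_normalizer_of_le_centralizer (_root_.sup_le (le_centralizer_iff.mp (hR.trans inf_le_right))
      (le_centralizer_iff.mp ((hR.trans inf_le_left).trans (omegaZ_le_centralizer _)))))

theorem omegaZ_le (hTS : T ≤ S) : omegaZ 2 S ≤ omegaZ 2 (thompsonSubgroupOf 2 T) :=
  le_omegaZ (elemAb_omegaZ _)
    ((h.sc.omegaZ_le (h.syl.pCoreOf_le.trans hTS)).trans h.loc.v_le_thompson)
    ((omegaZ_le_centralizer S).trans (centralizer_anti ((thompsonSubgroupOf_le T).trans hTS)))

theorem card_cases (hK' : JC (thompsonSubgroupOf 2 T) K') (hn : ¬ K' ≤ L) :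
    Nat.card (omegaZ 2 (thompsonSubgroupOf 2 T)) = 2 ∨
      (IsFour (omegaZ 2 (thompsonSubgroupOf 2 T)) ∧
        Nat.card (omegaZ 2 (thompsonSubgroupOf 2 T) ⊓ centralizer (K : Set G) : Subgroup G) = 2 ∧
        Nat.card (omegaZ 2 (thompsonSubgroupOf 2 T) ⊓ centralizer (K' : Set G) : Subgroup G) = 2 ∧
        omegaZ 2 (thompsonSubgroupOf 2 T) ⊓ centralizer (K : Set G) ≠
          omegaZ 2 (thompsonSubgroupOf 2 T) ⊓ centralizer (K' : Set G)) := by
  have h1 := h.jc.card_omegaZ
  have h2 := hK'.card_omegaZ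
  set Z := omegaZ 2 (thompsonSubgroupOf 2 T) with hZ
  set D := Z ⊓ centralizer (K : Set G) with hD
  set D' := Z ⊓ centralizer (K' : Set G) with hD'
  have h3 : D ⊓ D' = ⊥ := by
    by_contra hne
    exact hn ((le_normalizer_of_le_centralizer (le_centralizer_iff.mp
      (inf_le_right.trans inf_le_right))).trans (h.normalizer_le_of_le inf_le_left hne))
  have h4 := card_sup_mul_card_inf (A := D) (B := D') (le_normalizer_of_le_centralizer
    ((inf_le_left.trans (elemAb_le_centralizer (elemAb_omegaZ _))).trans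
      (centralizer_anti inf_le_left)))
  have h5 := card_le_card_of_le (_root_.sup_le (inf_le_left : D ≤ Z) (inf_le_left : D' ≤ Z))
  rw [h3, card_bot, mul_one] at h4
  have h6 : 0 < Nat.card D := Nat.card_pos
  have h7 : Nat.card D' = Nat.card D := by omega
  have h8 : Nat.card D ≤ 2 := by rw [h7] at h4; nlinarith
  by_cases h9 : Nat.card D = 1
  · left; omega
  · right
    refine ⟨⟨by omega, elemAb_omegaZ _⟩, by omega, by omega, fun e => h9 ?_⟩
    rw [← e, inf_idem] at h3
    rw [h3, card_bot]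

theorem le_normalizer_of_centralizer
    (hT : T ≤ centralizer (omegaZ 2 (thompsonSubgroupOf 2 T) : Set G)) :
    T ≤ normalizer (K : Set G) := fun t ht => by
  refine h.loc.mem_normalizer_of_inf h.jc h.KL (h.syl.le ht) fun e => ?_
  obtain ⟨z, hz, hz1⟩ := exists_ne_one_of_card_two h.jc.card_omegaZ_inf_wOf
  obtain ⟨hz2, hz3⟩ := mem_inf.mp hz
  apply hz1
  rw [← mem_bot, ← e]
  refine mem_inf.mpr ⟨hz3, ?_⟩
  rw [← conj_eq_of_mem_centralizer (hT ht) hz2]
  exact conj_mem_conjS.mpr hz3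

/-- The conclusion when `N(J(T))` is not contained in `L`. -/
theorem cases_of_not_le (hS : IsSylowIn 2 S ⊤) (hTS : T ≤ S)
    (hn : ¬ normalizer (thompsonSubgroupOf 2 T : Set G) ≤ L) :
    (omegaZ 2 S = omegaZ 2 (thompsonSubgroupOf 2 T) ∧
        Nat.card (omegaZ 2 (thompsonSubgroupOf 2 T)) = 2) ∨
      (omegaZ 2 S = omegaZ 2 (thompsonSubgroupOf 2 T) ∧
        Nat.card (omegaZ 2 (thompsonSubgroupOf 2 T)) = 4 ∧ T = S) ∨
      (omegaZ 2 T = omegaZ 2 (thompsonSubgroupOf 2 T) ∧
        Nat.card (omegaZ 2 (thompsonSubgroupOf 2 T)) = 4 ∧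
        (L ⊓ centralizer (omegaZ 2 (thompsonSubgroupOf 2 T) : Set G)).relIndex
          (normalizer (omegaZ 2 (thompsonSubgroupOf 2 T) : Set G)) = 2) := by
  have := Fact.mk Nat.prime_two
  obtain ⟨g, hg, hgL⟩ := SetLike.not_le_iff_exists.mp hn
  have hZ := h.omegaZ_le hTS
  have hS1 : S ≠ ⊥ := fun e => h.jc.four.ne_bot (eq_bot_iff.mpr (e ▸ ((h.loc.wOf_le h.jc h.KL).trans
    ((LAE.omegaZ_le _).trans h.syl.pCoreOf_le)).trans hTS))
  rcases h.card_cases (h.jc.conj_of_mem_normalizer hg) (h.not_conj_le hg hgL) with e | ⟨h4, hD, -⟩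
  · obtain ⟨z, hz, hz1⟩ := (bot_or_exists_ne_one _).resolve_left (omegaZ_ne_bot hS.isPGroup hS1)
    exact Or.inl ⟨le_antisymm hZ (le_of_card_two e (hZ hz) hz1 hz), e⟩
  right
  set J := thompsonSubgroupOf 2 T with hJ
  set Z := omegaZ 2 J with hZdef
  set D := Z ⊓ centralizer (K : Set G) with hDdef
  have hD1 : D ≠ ⊥ := fun e => by rw [e] at hD; simp at hD
  have hND : normalizer (D : Set G) ≤ L := h.normalizer_le_of_le le_rfl hD1
  have hCL : centralizer (Z : Set G) ≤ L :=
    (le_normalizer_of_le_centralizer (centralizer_anti inf_le_left)).trans hND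
  have hgN : g ∈ normalizer (Z : Set G) := normalizer_le_normalizer_omegaZ J hg
  have hle : ∀ x ∈ normalizer (Z : Set G), conjS x D ≤ Z := fun x hx => by
    rw [← mem_normalizer_iff_conjS.mp hx]; exact conjS_mono inf_le_left
  have hc : ∀ x : G, Nat.card (conjS x D) = 2 := fun x => by rw [card_conjS, hD]
  have hne : ∀ x y : G, y ∈ L → x ∉ L → conjS x D ≠ conjS y D := fun x y hy hx e => by
    have h1 : y⁻¹ * x ∈ normalizer (D : Set G) := by
      rw [mem_normalizer_iff_conjS, conjS_mul, e, conjS_inv_conjS]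
    exact hx (by simpa using mul_mem hy (hND h1))
  have hfix : ∀ l ∈ normalizer (Z : Set G), l ∈ L → conjS l D = D := by
    intro l hl hlL
    by_contra hlD
    have h1 : g * l ∉ L := fun e => hgL (by simpa using mul_mem e (inv_mem hlL))
    have h2 := h4.third (hle 1 (one_mem _)) (hle l hl) (hc _) (hc _) (by rw [conjS_one]; exact Ne.symm hlD)
      (hle g hgN) (hle _ (mul_mem hgN hl)) (hc _) (hc _) (hne g 1 (one_mem _) hgL)
      (hne g l hlL hgL) (hne _ 1 (one_mem _) h1) (hne _ l hlL h1)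
    rw [conjS_mul] at h2
    exact hlD (conjS_injective g h2).symm
  have hTN : T ≤ normalizer (Z : Set G) := le_normalizer_omegaZ_of_le (le_normalizer_thompson T)
  have hTD : T ≤ centralizer (D : Set G) := fun t ht => mem_centralizer_of_card_two hD
    (mem_normalizer_iff_conjS.mpr (hfix t (hTN ht) (h.syl.le ht)))
  have hTK : T ≤ normalizer (K : Set G) := by
    intro t ht
    rw [mem_normalizer_iff_conjS]
    by_contra e
    have hK' := h.jc.conj_of_mem_normalizer (le_normalizer_thompson T ht)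
    have h1 := h.loc.jc_cent h.jc h.KL hK' (conjS_le_of_le_of_mem h.KL (h.syl.le ht)) (Ne.symm e)
    have h2 : conjS t K ≤ centralizer (D : Set G) := by
      rw [← hfix t (hTN ht) (h.syl.le ht), ← conjS_centralizer]
      exact conjS_mono (le_centralizer_iff.mp inf_le_right)
    have h3 : conjS t K ≤ centralizer (Z : Set G) := by
      rw [hZdef, ← h.jc.omegaZ_decomp, centralizer_sup]
      exact le_inf h2 (h1.trans (centralizer_anti inf_le_right))
    have h5 := hK'.card_omegaZ_inf_wOf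
    have h7 : omegaZ 2 J ⊓ wOf (conjS t K) = ⊥ := by
      rw [eq_bot_iff, ← hK'.inf_centralizer_eq_bot]
      exact le_inf inf_le_right (inf_le_left.trans (le_centralizer_iff.mp h3))
    rw [h7] at h5
    simp at h5
  have hTC : T ≤ centralizer (Z : Set G) := by
    rw [hZdef, ← h.jc.omegaZ_decomp, centralizer_sup]
    exact le_inf hTD fun t ht => mem_centralizer_of_card_two h.jc.card_omegaZ_inf_wOf
      (le_normalizer_inf hTN (hTK.trans (normalizer_le_normalizer_wOf K)) ht)
  have hTZ : omegaZ 2 T = Z := le_antisymm (h.omegaZ_le le_rfl)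
    (le_omegaZ h4.elem ((LAE.omegaZ_le _).trans (thompsonSubgroupOf_le T))
      (le_centralizer_iff.mp hTC))
  have h6 := h4.relIndex_dvd_six (le_refl (normalizer (Z : Set G)))
  by_cases h3 : 3 ∣ (centralizer (Z : Set G)).relIndex (normalizer (Z : Set G))
  · left
    obtain ⟨f, hf, hfo, hfp⟩ := h4.exists_fpf (pResOf_pResOf _) (pResOf_le _)
      (not_pResOf_le_of_three_dvd (normalizer_le_normalizer_centralizer Z) h3)
    have hfN := pResOf_le _ hf
    have hfD : ∀ k : ℕ, ¬ 3 ∣ k → f ^ k ∉ normalizer (D : Set G) := fun k hk e => by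
      have h1 : f ∈ normalizer (D : Set G) := mem_of_pow_mem_of_pow_mem
        ((Nat.Prime.coprime_iff_not_dvd Nat.prime_three).mpr hk)
        (le_normalizer_of_le_centralizer (centralizer_anti inf_le_left) (h4.pow_three_mem hfN hfo)) e
      rcases h4.eq_bot_or_eq hfp inf_le_left h1 with e | e
      · exact hD1 e
      · rw [← hDdef] at e; rw [e, h4.card] at hD; norm_num at hD
    have hP : S ⊓ normalizer (T : Set G) ≤ centralizer (Z : Set G) := by
      by_contra hPc
      have hPN : S ⊓ normalizer (T : Set G) ≤ normalizer (Z : Set G) :=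
        le_normalizer_omegaZ_of_le
          (inf_le_right.trans (normalizer_le_normalizer_thompsonSubgroupOf T))
      have hPp := hS.isPGroup.to_le (inf_le_left : S ⊓ normalizer (T : Set G) ≤ S)
      have hX := h4.card_inf_centralizer hPp hPN hPc
      obtain ⟨y, hy, hyX⟩ : ∃ y ∈ normalizer (Z : Set G),
          Z ⊓ centralizer ((S ⊓ normalizer (T : Set G) : Subgroup G) : Set G) = conjS y D := by
        by_contra hcon
        push Not at hcon
        have h1 : conjS 1 D ≠ conjS f D := fun e => hfD 1 (by norm_num)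
          (by rw [pow_one, mem_normalizer_iff_conjS, ← e, conjS_one])
        have h2 : conjS (f * f) D ≠ conjS 1 D := fun e => hfD 2 (by norm_num)
          (by rw [pow_two, mem_normalizer_iff_conjS, e, conjS_one])
        have h5 : conjS (f * f) D ≠ conjS f D := fun e => h1 (by
          rw [conjS_mul] at e
          rw [conjS_injective f e, conjS_one])
        exact hcon _ (mul_mem hfN hfN) (h4.third (hle 1 (one_mem _)) (hle f hfN) (hc _) (hc _) h1
          inf_le_left (hle _ (mul_mem hfN hfN)) hX (hc _) (hcon 1 (one_mem _)) (hcon f hfN) h2 h5)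
      have h1 : conjS y⁻¹ (S ⊓ normalizer (T : Set G)) ≤ normalizer (Z : Set G) ⊓ L := by
        refine le_inf (conjS_le_of_le_of_mem hPN (inv_mem hy)) (le_trans ?_ hND)
        rw [conjS_le_iff, inv_inv, conjS_normalizer, ← hyX]
        exact le_normalizer_of_le_centralizer (le_centralizer_iff.mp inf_le_right)
      obtain ⟨x, hx, h2⟩ := (h.syl.mono (le_inf hTN h.syl.le) inf_le_right).exists_conj_le
        (isPGroup_conjS hPp _) h1
      apply hPc
      have h5 := h2.trans hTC
      rwa [← conjS_mul, ← mem_normalizer_iff_conjS.mp (normalizer_le_normalizer_centralizer Z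
        (mul_mem (mem_inf.mp hx).1 (inv_mem hy))), conjS_le_conjS_iff] at h5
    have hTS' : T = S := eq_of_inf_normalizer_le hS.isPGroup hTS
      (h.syl.le_of_normalizes (hS.isPGroup.to_le inf_le_left) (hP.trans hCL) inf_le_right)
    exact ⟨hTS' ▸ hTZ, h4.card, hTS'⟩
  · right
    refine ⟨hTZ, h4.card, ?_⟩
    rw [inf_eq_right.mpr hCL]
    have h1 : (centralizer (Z : Set G)).relIndex (normalizer (Z : Set G)) ≠ 1 := fun e =>
      hgL (hCL (relIndex_eq_one.mp e hgN))
    have h2 := Nat.le_of_dvd (by norm_num) h6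
    interval_cases (centralizer (Z : Set G)).relIndex (normalizer (Z : Set G)) <;> omega

omit h in
theorem not_le_centralizer (hy : Hyp G) (hS : IsSylowIn 2 S ⊤)
    (hK : JC (thompsonSubgroupOf 2 S) K) : ¬ K ≤ centralizer (omegaZ 2 S : Set G) := fun e => by
  apply hK.not_le_of_isPGroup hK.pJ
  rw [← hK.comm]
  exact commutator_le_right_of_le_normalizer ((e.trans (hy.centralizer_le hS)).trans
    (normalizer_le_normalizer_thompsonSubgroupOf S))

/-- The conclusion for a Sylow subgroup with a second component outside `L`. -/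
theorem cases_of_pair (hS : IsSylowIn 2 T ⊤) (hK' : JC (thompsonSubgroupOf 2 T) K')
    (hn : ¬ K' ≤ L) : omegaZ 2 T = omegaZ 2 (thompsonSubgroupOf 2 T) ∧
      (Nat.card (omegaZ 2 (thompsonSubgroupOf 2 T)) = 2 ∨
        Nat.card (omegaZ 2 (thompsonSubgroupOf 2 T)) = 4) := by
  have := Fact.mk Nat.prime_two
  have hZ := h.omegaZ_le le_rfl
  have hS1 : T ≠ ⊥ := fun e => h.jc.four.ne_bot (eq_bot_iff.mpr (e ▸ ((h.loc.wOf_le h.jc h.KL).trans
    ((LAE.omegaZ_le _).trans h.syl.pCoreOf_le))))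
  obtain ⟨z, hz, hz1⟩ := (bot_or_exists_ne_one _).resolve_left (omegaZ_ne_bot hS.isPGroup hS1)
  rcases h.card_cases hK' hn with e | ⟨h4, hD, hD', hDD⟩
  · exact ⟨le_antisymm hZ (le_of_card_two e (hZ hz) hz1 hz), Or.inl e⟩
  refine ⟨?_, Or.inr h4.card⟩
  by_contra hne
  have hZ2 := h4.card_eq_two hZ (omegaZ_ne_bot hS.isPGroup hS1) hne
  set J := thompsonSubgroupOf 2 T with hJ
  set Z := omegaZ 2 J with hZdef
  set D := Z ⊓ centralizer (K : Set G) with hDdef
  have hD1 : D ≠ ⊥ := fun e => by rw [e] at hD; simp at hD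
  have hDZ : D ≠ omegaZ 2 T := fun e => not_le_centralizer h.hyp hS h.jc
    (le_centralizer_iff.mp (e ▸ inf_le_right))
  have hDZ' : Z ⊓ centralizer (K' : Set G) ≠ omegaZ 2 T := fun e => not_le_centralizer h.hyp hS hK'
    (le_centralizer_iff.mp (e ▸ inf_le_right))
  have hTN : T ≤ normalizer (Z : Set G) := le_normalizer_omegaZ_of_le (le_normalizer_thompson T)
  obtain ⟨s, hs, hsD⟩ : ∃ s ∈ T, conjS s D ≠ D := by
    by_contra hcon
    push Not at hcon
    refine hne (le_antisymm hZ (le_omegaZ h4.elem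
      ((LAE.omegaZ_le _).trans (thompsonSubgroupOf_le T)) (le_centralizer_iff.mp ?_)))
    rw [← h4.sup_eq inf_le_left hZ hD hZ2 hDZ, centralizer_sup]
    exact le_inf (fun t ht => mem_centralizer_of_card_two hD
      (mem_normalizer_iff_conjS.mpr (hcon t ht))) (le_centralizer_omegaZ T)
  have h1 := h4.third inf_le_left hZ hD hZ2 hDZ (X := conjS s D)
    (by rw [← mem_normalizer_iff_conjS.mp (hTN hs)]; exact conjS_mono inf_le_left) inf_le_left
    (by rw [card_conjS, hD]) hD' hsD (fun e => hDZ (by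
      rw [← mem_normalizer_iff_conjS.mp (normalizer_le_normalizer_omegaZ T (le_normalizer hs))] at e
      exact conjS_injective s e)) (Ne.symm hDD) hDZ'
  apply hn
  refine (le_normalizer_of_le_centralizer (le_centralizer_iff.mp
    (inf_le_right : Z ⊓ centralizer (K' : Set G) ≤ _))).trans ?_
  rw [← h1, ← conjS_normalizer]
  exact conjS_le_of_le_of_mem (h.normalizer_le_of_le le_rfl hD1) (h.syl.le hs)

end Big

end CfsgLib.ZN
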