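import Mathlib
import Cfsg.Agent.Lib.ZN.Center
import Cfsg.Agent.Lib.LocStr.CubicLoc
import Cfsg.Agent.Lib.StrEmb.Basic
import Cfsg.Agent.S2947

/-!
The amalgam of two components and its identification.
-/

set_option autoImplicit false

open Subgroup Cfsg CfsgLib.LAE CfsgLib.PLocal CfsgLib.LocStr
open scoped commutatorElement

namespace CfsgLib.ZN

variable {G : Type*} [Group G] [Finite G]

theorem mem_max_of_sylow {S M : Subgroup G} (hS : IsSylowIn 2 S ⊤)
    (h : S ∈ straddlingTwoSubgroups M) : S ∈ maxStraddlingTwoSubgroups M := by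
  have := Fact.mk Nat.prime_two
  refine ⟨h, fun R hR => ?_⟩
  obtain ⟨x, -, hx⟩ := hS.exists_conj_le hR.1 le_top
  rw [← maxElemAbelianOrder_conjS x R, ← card_conjS x (thompsonSubgroupOf 2 R), conjS_thompson]
  obtain ⟨A, hA⟩ := maxElemIn_nonempty (p := 2) (conjS x R)
  obtain ⟨B, hB⟩ := maxElemIn_nonempty (p := 2) S
  rw [maxElemAbelianOrder_eq hA, maxElemAbelianOrder_eq hB]
  obtain ⟨h1, h2, -⟩ := mem_maxElemIn.mp hA
  refine ⟨(mem_maxElemIn.mp hB).2.2 A (h1.trans hx) h2, fun e => ⟨card_le_card_of_le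
    (thompsonSubgroupOf_le_of_le hx (mem_maxElemIn_of_card_le hB (h1.trans hx) h2 e.ge) h1),
    fun _ => hS.card_le hR.1 le_top⟩⟩

theorem Hyp.normalizer_omegaZ_le (h : Hyp G) {S : Subgroup G} (hS : IsSylowIn 2 S ⊤) :
    normalizer (omegaZ 2 S : Set G) ≤ normalizer (S : Set G) := fun x hx => by
  have := Fact.mk Nat.prime_two
  obtain ⟨n, hn, y, hy, rfl⟩ := (hS.mono (le_centralizer_omegaZ S) le_top).frattini
    (normalizer_le_normalizer_centralizer _ hx)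
  exact mul_mem (h.centralizer_le hS hn) hy

/-- The case distinction is not degenerate. -/
def Good (S T L : Subgroup G) : Prop :=
  ¬ normalizer (thompsonSubgroupOf 2 T : Set G) ≤ L ∨
    ∃ M, IsTwoLocal M ∧ S ≤ M ∧ ¬ M ≤ L

structure Pair (T K₁ L₁ K₂ L₂ : Subgroup G) : Prop where
  b₁ : Big T K₁ L₁
  b₂ : Big T K₂ L₂
  n₁ : T ≤ normalizer (K₁ : Set G)
  n₂ : T ≤ normalizer (K₂ : Set G)
  ne : ¬ K₂ ≤ L₁

namespace Big

variable {S T K L : Subgroup G} (h : Big T K L)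
include h

theorem ne_bot : T ≠ ⊥ := fun e => h.jc.four.ne_bot (eq_bot_iff.mpr (e ▸
  ((h.loc.wOf_le h.jc h.KL).trans ((LAE.omegaZ_le _).trans h.syl.pCoreOf_le))))

theorem eq_of_normalizer_le (hS : IsSylowIn 2 S ⊤) (hTS : T ≤ S)
    (hn : normalizer (T : Set G) ≤ L) : T = S :=
  eq_of_inf_normalizer_le hS.isPGroup hTS (h.syl.le_of_normalizes (hS.isPGroup.to_le inf_le_left)
    (inf_le_right.trans hn) inf_le_right)

theorem good_cases (hS : IsSylowIn 2 S ⊤) (hTS : T ≤ S) (hg : Good S T L) :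
    ¬ normalizer (thompsonSubgroupOf 2 T : Set G) ≤ L ∨
      (T = S ∧ ∃ K' L', Big T K' L' ∧ ¬ K' ≤ L) := by
  by_cases hn : normalizer (thompsonSubgroupOf 2 T : Set G) ≤ L
  · right
    obtain ⟨M, h1, h2, h3⟩ := hg.resolve_left (not_not.mpr hn)
    obtain rfl := h.eq_of_normalizer_le hS hTS
      ((normalizer_le_normalizer_thompsonSubgroupOf T).trans hn)
    have hs : Str T L T := ⟨h.hyp, hS, hn,
      mem_max_of_sylow hS ⟨hS.isPGroup, h.ne_bot, h.syl.le, M, h1, h2, h3⟩⟩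
    obtain ⟨K', h4, h5, h6⟩ := hs.exists_outside
    obtain ⟨L', h7⟩ := hs.exists_big h4 h5 h6
    exact ⟨rfl, K', L', h7, h5⟩
  · exact Or.inl hn

theorem cases_of_good (hS : IsSylowIn 2 S ⊤) (hTS : T ≤ S) (hg : Good S T L) :
    (omegaZ 2 S = omegaZ 2 (thompsonSubgroupOf 2 T) ∧
        Nat.card (omegaZ 2 (thompsonSubgroupOf 2 T)) = 2) ∨
      (omegaZ 2 S = omegaZ 2 (thompsonSubgroupOf 2 T) ∧
        Nat.card (omegaZ 2 (thompsonSubgroupOf 2 T)) = 4 ∧ T = S) ∨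
      (omegaZ 2 T = omegaZ 2 (thompsonSubgroupOf 2 T) ∧
        Nat.card (omegaZ 2 (thompsonSubgroupOf 2 T)) = 4 ∧
        (L ⊓ centralizer (omegaZ 2 (thompsonSubgroupOf 2 T) : Set G)).relIndex
          (normalizer (omegaZ 2 (thompsonSubgroupOf 2 T) : Set G)) = 2) := by
  rcases h.good_cases hS hTS hg with hn | ⟨rfl, K', L', h1, h2⟩
  · exact h.cases_of_not_le hS hTS hn
  · obtain ⟨h3, h4 | h4⟩ := h.cases_of_pair hS h1.jc h2
    · exact Or.inl ⟨h3, h4⟩
    · exact Or.inr (Or.inl ⟨h3, h4, rfl⟩)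

theorem le_centralizer_of_good (hS : IsSylowIn 2 S ⊤) (hTS : T ≤ S) (hg : Good S T L) :
    T ≤ centralizer (omegaZ 2 (thompsonSubgroupOf 2 T) : Set G) := by
  rcases h.cases_of_good hS hTS hg with ⟨e, -⟩ | ⟨e, -⟩ | ⟨e, -⟩ <;> rw [← e]
  · exact hTS.trans (le_centralizer_omegaZ S)
  · exact hTS.trans (le_centralizer_omegaZ S)
  · exact le_centralizer_omegaZ T

theorem exists_pair (hS : IsSylowIn 2 S ⊤) (hTS : T ≤ S) (hg : Good S T L) :
    ∃ K' L', Pair T K L K' L' := by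
  have hc := h.le_centralizer_of_good hS hTS hg
  have hn := h.le_normalizer_of_centralizer hc
  by_cases hT : normalizer (T : Set G) ≤ L
  · obtain rfl := h.eq_of_normalizer_le hS hTS hT
    have h1 : omegaZ 2 T = omegaZ 2 (thompsonSubgroupOf 2 T) := le_antisymm (h.omegaZ_le le_rfl)
      (le_omegaZ (elemAb_omegaZ _) ((LAE.omegaZ_le _).trans (thompsonSubgroupOf_le T))
        (le_centralizer_iff.mp hc))
    obtain ⟨-, K', L', h2, h3⟩ := (h.good_cases hS hTS hg).resolve_left (not_not.mpr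
      ((normalizer_le_normalizer_omegaZ _).trans (h1 ▸ (h.hyp.normalizer_omegaZ_le hS).trans hT)))
    exact ⟨K', L', h, h2, hn, h2.le_normalizer_of_centralizer hc, h3⟩
  · obtain ⟨g, hg, hgL⟩ := SetLike.not_le_iff_exists.mp hT
    have h1 := h.conj g
    have h2 := conjS_mono (g := g) hn
    rw [conjS_normalizer, mem_normalizer_iff_conjS.mp hg] at h2
    rw [mem_normalizer_iff_conjS.mp hg] at h1
    exact ⟨_, _, h, h1, hn, h2,
      h.not_conj_le (normalizer_le_normalizer_thompsonSubgroupOf T hg) hgL⟩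

omit [Finite G] in
theorem P_le : K ⊔ T ≤ L := _root_.sup_le h.KL h.syl.le

omit [Finite G] in
theorem sc_P : Sc (K ⊔ T) := h.sc.of_between (h.syl.pCoreOf_le.trans le_sup_right) h.P_le

omit [Finite G] in
theorem syl_P : IsSylowIn 2 T (K ⊔ T) := h.syl.mono le_sup_right h.P_le

variable (hn : T ≤ normalizer (K : Set G))
include hn

omit [Finite G] h in
theorem P_le_normalizer : K ⊔ T ≤ normalizer (wOf K : Set G) :=
  (_root_.sup_le le_normalizer hn).trans (normalizer_le_normalizer_wOf K)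

theorem pCoreOf_P : pCoreOf 2 (K ⊔ T) = (K ⊔ T) ⊓ centralizer (wOf K : Set G) :=
  le_antisymm (le_inf (pCoreOf_le _) (h.jc.le_centralizer_wOf (isPGroup_pCoreOf _)
    ((pCoreOf_le _).trans (P_le_normalizer hn)) (le_sup_left.trans (le_normalizer_pCoreOf _))))
    (le_pCoreOf (h.jc.isPGroup_inf_centralizer (h.jc.pResOf_sup h.syl.isPGroup hn).le) inf_le_left
      (le_normalizer_inf le_normalizer (le_normalizer_centralizer (P_le_normalizer hn))))

theorem idx_two : (pCoreOf 2 (K ⊔ T)).relIndex T = 2 := by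
  rw [h.pCoreOf_P hn, ← inf_relIndex_right, inf_comm (K ⊔ T), inf_assoc,
    inf_eq_right.mpr (le_sup_right : T ≤ K ⊔ T), inf_relIndex_right]
  exact h.jc.four.relIndex_eq_two h.syl.isPGroup (le_sup_right.trans (P_le_normalizer hn))
    fun e => h.jc.J_not_le_centralizer ((thompsonSubgroupOf_le T).trans e)

theorem idx_six : (pCoreOf 2 (K ⊔ T)).relIndex (K ⊔ T) = 6 := by
  have h1 := h.jc.four.relIndex_dvd_six (P_le_normalizer hn)
  have h2 := relIndex_dvd_relIndex_of_le_normalizer (le_sup_right : T ≤ K ⊔ T)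
    (le_normalizer_pCoreOf (p := 2) _)
  have h3 := relIndex_dvd_relIndex_of_le_normalizer (le_sup_left : K ≤ K ⊔ T)
    (le_normalizer_centralizer (P_le_normalizer hn))
  rw [h.idx_two hn] at h2
  rw [← inf_relIndex_left, h.jc.inf_centralizer_wOf, h.jc.idx] at h3
  rw [h.pCoreOf_P hn, inf_relIndex_left] at h2 ⊢
  exact Nat.dvd_antisymm h1 (Nat.Coprime.mul_dvd_of_dvd_of_dvd (by norm_num : Nat.Coprime 2 3) h2 h3)

theorem idx_three : T.relIndex (K ⊔ T) = 3 := by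
  have := relIndex_mul_relIndex _ _ _ h.syl_P.pCoreOf_le h.syl_P.le
  rw [h.idx_two hn, h.idx_six hn] at this
  omega

theorem not_le_centralizer_omegaZ : ¬ K ≤ centralizer (omegaZ 2 T : Set G) := fun e => by
  have := Fact.mk Nat.prime_two
  have h1 : T ≤ normalizer (wOf K : Set G) := hn.trans (normalizer_le_normalizer_wOf K)
  refine inf_centralizer_ne_bot h.jc.four.isPGroup h.syl.isPGroup h1 h.jc.four.ne_bot ?_
  rw [eq_bot_iff, ← h.jc.inf_centralizer_eq_bot]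
  refine le_inf inf_le_left (le_trans ?_ (le_centralizer_iff.mp e))
  exact le_omegaZ (elemAb_mono h.jc.four.elem inf_le_left) (inf_le_left.trans
    ((h.loc.wOf_le h.jc h.KL).trans ((LAE.omegaZ_le _).trans h.syl.pCoreOf_le))) inf_le_right

theorem cubLoc {H : Subgroup G} (hH : K ⊔ T ≤ H) :
    CubLoc ((K ⊔ T).subgroupOf H) (T.subgroupOf H) := by
  refine ⟨inferInstance, (isCharP_subgroupOf_iff hH).mpr (inf_le_right.trans h.sc_P),
    h.syl_P.subgroupOf hH, ?_, ?_, fun e => h.not_le_centralizer_omegaZ hn ?_⟩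
  · rw [pCoreOf_subgroupOf_of_le hH, relIndex_subgroupOf (le_sup_right.trans hH), h.idx_two hn]
  · rw [relIndex_subgroupOf hH, h.idx_three hn]
  · have := map_le_centralizer_map H.subtype e
    rw [map_omegaZ H.subtype_injective, map_subgroupOf_of_le hH,
      map_subgroupOf_of_le (le_sup_right.trans hH)] at this
    exact le_sup_left.trans this

theorem wOf_le_P : wOf K ≤ pCoreOf 2 (K ⊔ T) := by
  rw [h.pCoreOf_P hn]
  exact le_inf ((wOf_le K).trans le_sup_left) h.jc.four.le_centralizer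

theorem pCoreOf_eq_of_equiv (e : (K ⊔ T : Subgroup G) ≃* Equiv.Perm (Fin 4)) :
    pCoreOf 2 (K ⊔ T) = wOf K := by
  have h1 := CfsgLib.Core.card_mul_relIndex_of_le (pCoreOf_le (p := 2) (K ⊔ T))
  rw [h.idx_six hn, Nat.card_congr e.toEquiv, Nat.card_perm] at h1
  simp only [Nat.card_eq_fintype_card, Fintype.card_fin, Nat.factorial] at h1
  refine (CfsgLib.Core.eq_of_le_of_card_le (h.wOf_le_P hn) ?_).symm
  rw [h.jc.four.card]; omega

theorem pCoreOf_eq_of_equiv_prod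
    (e : (K ⊔ T : Subgroup G) ≃* Multiplicative (ZMod 2) × Equiv.Perm (Fin 4)) :
    ∃ z ∈ centralizer ((K ⊔ T : Subgroup G) : Set G), z * z = 1 ∧ z ∉ wOf K ∧
      pCoreOf 2 (K ⊔ T) = wOf K ⊔ zpowers z ∧ Nat.card (pCoreOf 2 (K ⊔ T)) = 8 := by
  have h1 := CfsgLib.Core.card_mul_relIndex_of_le (pCoreOf_le (p := 2) (K ⊔ T))
  rw [h.idx_six hn, Nat.card_congr e.toEquiv, Nat.card_prod, Nat.card_perm] at h1
  simp only [Nat.card_eq_fintype_card, Fintype.card_fin, Nat.factorial, Fintype.card_multiplicative,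
    ZMod.card] at h1
  set z := e.symm (Multiplicative.ofAdd 1, 1) with hz
  have hc : (z : G) ∈ centralizer ((K ⊔ T : Subgroup G) : Set G) := by
    intro p hp
    have : (⟨p, hp⟩ : (K ⊔ T : Subgroup G)) * z = z * ⟨p, hp⟩ := e.injective (by
      rw [map_mul, map_mul, hz, e.apply_symm_apply]
      exact Prod.ext (mul_comm _ _) (by simp))
    exact congrArg Subtype.val this
  have hz2 : (z : G) * z = 1 := by
    have : z * z = 1 := by rw [hz, ← map_mul, ← e.symm.map_one]; congr 1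
    exact congrArg Subtype.val this
  have hz1 : (z : G) ≠ 1 := fun h' => by
    have : z = 1 := Subtype.ext h'
    rw [hz, e.symm.map_eq_one_iff] at this
    exact absurd this (by decide)
  have hzW : (z : G) ∉ wOf K := fun h' => hz1 (by
    rw [← mem_bot, ← h.jc.inf_centralizer_eq_bot]
    exact mem_inf.mpr ⟨h', centralizer_anti le_sup_left hc⟩)
  have hle : wOf K ⊔ zpowers (z : G) ≤ pCoreOf 2 (K ⊔ T) := _root_.sup_le (h.wOf_le_P hn)
    (zpowers_le.mpr (h.sc_P (centralizer_anti (pCoreOf_le _) hc)))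
  have h2 := two_mul_card_le_of_lt (lt_of_le_of_ne (le_sup_left : wOf K ≤ wOf K ⊔ zpowers (z : G))
    fun e' => hzW (e' ▸ (le_sup_right : zpowers (z : G) ≤ _) (mem_zpowers _)))
  rw [h.jc.four.card] at h2
  exact ⟨z, hc, hz2, hzW, (CfsgLib.Core.eq_of_le_of_card_le hle (by omega)).symm, by omega⟩

theorem elem_of_equiv (e : Nonempty ((K ⊔ T : Subgroup G) ≃* Equiv.Perm (Fin 4)) ∨
    Nonempty ((K ⊔ T : Subgroup G) ≃* Multiplicative (ZMod 2) × Equiv.Perm (Fin 4))) :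
    IsElementaryAbelian 2 (pCoreOf 2 (K ⊔ T)) ∧ Nat.card (pCoreOf 2 (K ⊔ T)) ≤ 8 := by
  rcases e with ⟨⟨e⟩⟩ | ⟨⟨e⟩⟩
  · rw [h.pCoreOf_eq_of_equiv hn e, h.jc.four.card]
    exact ⟨h.jc.four.elem, by norm_num⟩
  · obtain ⟨z, h1, h2, -, h3, h4⟩ := h.pCoreOf_eq_of_equiv_prod hn e
    refine ⟨h3 ▸ elemAb_sup h.jc.four.elem (elemAb_zpowers (by rw [pow_two, h2])) ?_, h4.le⟩
    exact le_centralizer_iff.mp (zpowers_le.mpr
      (centralizer_anti ((wOf_le K).trans le_sup_left) h1))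

theorem eq_of_elem (he : IsElementaryAbelian 2 (pCoreOf 2 (K ⊔ T)))
    (hc : Nat.card (pCoreOf 2 (K ⊔ T)) ≤ 8) : L = K ⊔ T := by
  have := Fact.mk Nat.prime_two
  have hQ : pCoreOf 2 L = pCoreOf 2 (K ⊔ T) := by
    have h1 := pCoreOf_le_pCoreOf_of_le h.P_le (h.syl.pCoreOf_le.trans le_sup_right)
    exact le_antisymm h1 (((elemAb_le_centralizer he).trans (centralizer_anti h1)).trans h.sc)
  rw [← hQ] at he hc
  set Q := pCoreOf 2 L with hQdef
  have hWQ : wOf K ≤ Q := hQ ▸ h.wOf_le_P hn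
  have hLW : L ≤ normalizer (wOf K : Set G) := by
    refine le_trans (fun g hg => h.loc.mem_normalizer_of_inf h.jc h.KL hg fun e => ?_)
      (normalizer_le_normalizer_wOf K)
    have h1 : conjS g (wOf K) ≤ Q := by
      exact (conjS_mono hWQ).trans (mem_normalizer_iff_conjS.mp (le_normalizer_pCoreOf L hg)).le
    have h2 := card_sup_mul_card_inf (A := wOf K) (B := conjS g (wOf K))
      (le_normalizer_of_le_centralizer ((hWQ.trans (elemAb_le_centralizer he)).trans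
        (centralizer_anti h1)))
    have h3 := card_le_card_of_le (_root_.sup_le hWQ h1)
    rw [e, card_bot, card_conjS, h.jc.four.card] at h2
    omega
  set C := L ⊓ centralizer (wOf K : Set G) with hC
  have hCQ : ⁅Q, C⁆ ≤ wOf K := by
    have h1 := CfsgLib.Core.card_mul_relIndex_of_le hWQ
    rw [h.jc.four.card] at h1
    have h2 : 0 < Nat.card Q := Nat.card_pos
    rw [Subgroup.commutator_le]
    intro q hq c hc'
    obtain ⟨hc1, hc2⟩ := mem_inf.mp hc'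
    by_cases hqW : q ∈ wOf K
    · rw [commutatorElement_eq_one_iff_mul_comm.mpr (hc2 q hqW)]; exact one_mem _
    have h3 : (wOf K).relIndex Q = 2 := by
      have : (wOf K).relIndex Q ≠ 1 := fun e => hqW (relIndex_eq_one.mp e hq)
      omega
    have := mul_mem_of_relIndex_two h3 hq
      (conj_mem_of_mem_normalizer (le_normalizer_pCoreOf L hc1) (inv_mem hq)) hqW fun e => hqW (by
        have := inv_mem (conj_inv_mem_of_mem_normalizer (hLW hc1) e)
        convert this using 1; group)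
    convert this using 1
    simp only [commutatorElement_def]; group
  have h1 : pResOf 2 C ≤ centralizer (Q : Set G) := pResOf_le_centralizer_of_le
    (isPGroup_pCoreOf L) (inf_le_left.trans (le_normalizer_pCoreOf L))
    ((commutator_mono le_rfl (pResOf_le C)).trans hCQ) ((pResOf_le C).trans inf_le_right)
  have h2 : C ≤ Q := le_pCoreOf (isPGroup_of_pResOf_le (isPGroup_pCoreOf L) (h1.trans h.sc))
    inf_le_left (le_normalizer_inf le_normalizer (le_normalizer_centralizer hLW))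
  have h3 := Nat.le_of_dvd (by norm_num) (h.jc.four.relIndex_dvd_six hLW)
  have h4 := CfsgLib.Core.card_inf_mul_relIndex (centralizer (wOf K : Set G)) L
  have h5 := CfsgLib.Core.card_mul_relIndex_of_le (pCoreOf_le (p := 2) (K ⊔ T))
  rw [h.idx_six hn, ← hQ] at h5
  rw [inf_comm] at h4
  refine (CfsgLib.Core.eq_of_le_of_card_le h.P_le ?_).symm
  rw [← h4, ← h5]
  exact Nat.mul_le_mul (card_le_card_of_le h2) h3

end Big

namespace Pair

variable {S T K₁ L₁ K₂ L₂ : Subgroup G} (h : Pair T K₁ L₁ K₂ L₂)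
include h

omit [Finite G] in
theorem symm : Pair T K₂ L₂ K₁ L₁ :=
  ⟨h.b₂, h.b₁, h.n₂, h.n₁, fun e => h.ne (h.b₂.KL.trans (h.b₁.great _ h.b₂.two
    (sup_le e (le_sup_right.trans h.b₂.sup_le))))⟩

omit [Finite G] in
theorem pCoreOf_eq_bot : pCoreOf 2 ((K₁ ⊔ T) ⊔ (K₂ ⊔ T)) = ⊥ := by
  by_contra hne
  have h1 := le_normalizer_pCoreOf (p := 2) ((K₁ ⊔ T) ⊔ (K₂ ⊔ T))
  exact h.ne (((le_sup_left.trans le_sup_right).trans h1).trans (h.b₁.normalizer_le
    (isPGroup_pCoreOf _) hne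
    (((sup_le_sup_left (thompsonSubgroupOf_le T) K₁).trans le_sup_left).trans h1)))

theorem inf_eq : (K₁ ⊔ T) ⊓ (K₂ ⊔ T) = T := by
  rcases eq_or_eq_of_relIndex_prime (le_inf le_sup_right le_sup_right : T ≤ (K₁ ⊔ T) ⊓ (K₂ ⊔ T))
    inf_le_right (by rw [h.b₂.idx_three h.n₂]; exact Nat.prime_three) with e | e
  · exact e
  · exact absurd ((le_sup_left.trans (inf_eq_right.mp e)).trans h.b₁.P_le) h.ne

theorem equiv : (Nonempty ((K₁ ⊔ T : Subgroup G) ≃* Equiv.Perm (Fin 4)) ∧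
      Nonempty ((K₂ ⊔ T : Subgroup G) ≃* Equiv.Perm (Fin 4))) ∨
    (Nonempty ((K₁ ⊔ T : Subgroup G) ≃* Multiplicative (ZMod 2) × Equiv.Perm (Fin 4)) ∧
      Nonempty ((K₂ ⊔ T : Subgroup G) ≃* Multiplicative (ZMod 2) × Equiv.Perm (Fin 4))) := by
  set H := (K₁ ⊔ T) ⊔ (K₂ ⊔ T) with hH
  have h1 : K₁ ⊔ T ≤ H := le_sup_left
  have h2 : K₂ ⊔ T ≤ H := le_sup_right
  have h3 : (K₁ ⊔ T).subgroupOf H ⊓ (K₂ ⊔ T).subgroupOf H = T.subgroupOf H := by
    exact (comap_inf _ _ H.subtype).symm.trans (congrArg (comap H.subtype) h.inf_eq)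
  have key : CubEdge ((K₁ ⊔ T).subgroupOf H) ((K₂ ⊔ T).subgroupOf H) := by
    refine ⟨⟨?_, fun N hN hn => ?_⟩, h3 ▸ h.b₁.cubLoc h.n₁ h1, h3 ▸ h.b₂.cubLoc h.n₂ h2⟩
    · rw [← subgroupOf_sup h1 h2, subgroupOf_self]
    · rw [h3] at hN
      rw [eq_bot_iff, ← pCoreOf_eq_bot_iff.mp h.pCoreOf_eq_bot]
      exact le_pCore hn (((isPGroup_subgroupOf_iff (le_sup_right.trans h1)).mpr
        h.b₁.syl.isPGroup).to_le hN)
  have tr : ∀ {X : Subgroup G} {Y : Type} [Group Y], X ≤ H → Nonempty (X.subgroupOf H ≃* Y) →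
      Nonempty (X ≃* Y) := fun hX ⟨e⟩ => ⟨(subgroupOfEquivOfLe hX).symm.trans e⟩
  exact key.equiv.imp (fun k => ⟨tr h1 k.1, tr h2 k.2⟩) (fun k => ⟨tr h1 k.1, tr h2 k.2⟩)

theorem elem : IsElementaryAbelian 2 (pCoreOf 2 (K₁ ⊔ T)) ∧ Nat.card (pCoreOf 2 (K₁ ⊔ T)) ≤ 8 :=
  h.b₁.elem_of_equiv h.n₁ (h.equiv.imp (·.1) (·.1))

theorem L_eq : L₁ = K₁ ⊔ T := h.b₁.eq_of_elem h.n₁ h.elem.1 h.elem.2

theorem elemL : IsElementaryAbelian 2 (pCoreOf 2 L₁) := h.L_eq ▸ h.elem.1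

theorem idxL : (pCoreOf 2 L₁).relIndex T = 2 := h.L_eq ▸ h.b₁.idx_two h.n₁

theorem card_eq : Nat.card (pCoreOf 2 L₁) = Nat.card (pCoreOf 2 L₂) := by
  have h1 := CfsgLib.Core.card_mul_relIndex_of_le h.b₁.syl.pCoreOf_le
  have h2 := CfsgLib.Core.card_mul_relIndex_of_le h.b₂.syl.pCoreOf_le
  rw [h.idxL] at h1
  rw [h.symm.idxL] at h2
  omega

theorem not_le : ¬ pCoreOf 2 L₁ ≤ pCoreOf 2 L₂ := fun e => by
  have h1 := CfsgLib.Core.eq_of_le_of_card_le e h.card_eq.ge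
  exact h.ne ((h.b₂.KL.trans (le_normalizer_pCoreOf L₂)).trans (h1 ▸ h.b₁.normalizer_pCoreOf_le))

theorem sup_eq : pCoreOf 2 L₁ ⊔ pCoreOf 2 L₂ = T := by
  rcases eq_or_eq_of_relIndex_prime (le_sup_left : pCoreOf 2 L₁ ≤ pCoreOf 2 L₁ ⊔ pCoreOf 2 L₂)
    (sup_le h.b₁.syl.pCoreOf_le h.b₂.syl.pCoreOf_le) (by rw [h.idxL]; exact Nat.prime_two)
    with e | e
  · exact absurd (sup_eq_left.mp e) h.symm.not_le
  · exact e

theorem mem_or {x : G} (hx : x ∈ T) (hx2 : x * x = 1) : x ∈ pCoreOf 2 L₁ ∨ x ∈ pCoreOf 2 L₂ := by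
  by_contra hne
  push Not at hne
  obtain ⟨h1, h2⟩ := hne
  have key : ∀ q ∈ pCoreOf 2 L₁, q ∉ pCoreOf 2 L₂ → x * q ∈ pCoreOf 2 L₂ := fun q hq hq' =>
    mul_mem_of_relIndex_two h.symm.idxL hx (h.b₁.syl.pCoreOf_le hq) h2 hq'
  obtain ⟨q₁, hq₁, hq₁'⟩ := SetLike.not_le_iff_exists.mp h.not_le
  apply h1 (h.b₁.sc ?_)
  intro q hq
  have hq2 : q * q = 1 := by rw [← pow_two]; exact h.elemL.2 q hq
  by_cases hq' : q ∈ pCoreOf 2 L₂
  · have h3 := elemAb_comm h.symm.elemL hq' (key q₁ hq₁ hq₁')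
    have h4 := elemAb_comm h.elemL hq hq₁
    have : q * x * q₁ = x * q * q₁ := by rw [mul_assoc, h3, mul_assoc, mul_assoc, h4]
    exact mul_right_cancel this
  · have h3 : x * q * (x * q) = 1 := by rw [← pow_two]; exact h.symm.elemL.2 _ (key q hq hq')
    calc q * x = (x * x) * q * x * (q * q) := by rw [hx2, hq2]; group
      _ = x * (x * q * (x * q)) * q := by group
      _ = x * q := by rw [h3]; group

theorem le_or {E : Subgroup G} (hE : IsElementaryAbelian 2 E) (hET : E ≤ T) :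
    E ≤ pCoreOf 2 L₁ ∨ E ≤ pCoreOf 2 L₂ := by
  by_contra hne
  push Not at hne
  obtain ⟨x, hx, hx'⟩ := SetLike.not_le_iff_exists.mp hne.1
  obtain ⟨y, hy, hy'⟩ := SetLike.not_le_iff_exists.mp hne.2
  have hsq : ∀ z ∈ E, z * z = 1 := fun z hz => by rw [← pow_two]; exact hE.2 z hz
  have h1 := (h.mem_or (hET hx) (hsq x hx)).resolve_left hx'
  have h2 := (h.mem_or (hET hy) (hsq y hy)).resolve_right hy'
  rcases h.mem_or (hET (mul_mem hx hy)) (hsq _ (mul_mem hx hy)) with e | e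
  · exact hx' (by simpa using mul_mem e (inv_mem h2))
  · exact hy' (by simpa using mul_mem (inv_mem h1) e)

theorem conjS_eq {v : G} (hv : v ∈ normalizer (T : Set G)) (hv' : v ∉ L₁) :
    conjS v (pCoreOf 2 L₁) = pCoreOf 2 L₂ := by
  rcases h.le_or (E := conjS v (pCoreOf 2 L₁)) (elemAb_map h.elemL _)
    ((conjS_mono h.b₁.syl.pCoreOf_le).trans (mem_normalizer_iff_conjS.mp hv).le) with e | e
  · exact absurd (h.b₁.normalizer_pCoreOf_le (mem_normalizer_of_conjS_le e)) hv'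
  · exact CfsgLib.Core.eq_of_le_of_card_le e (by rw [card_conjS, h.card_eq])

theorem conjS_eq_of_isPGroup (hS : IsPGroup 2 S) {v : G} (hvS : v ∈ S)
    (hv : v ∈ normalizer (T : Set G)) (hv' : v ∉ T) :
    conjS v (pCoreOf 2 L₁) = pCoreOf 2 L₂ :=
  h.conjS_eq hv fun e => hv' (h.b₁.syl.le_of_normalizes (hS.to_le (zpowers_le.mpr hvS))
    (zpowers_le.mpr e) (zpowers_le.mpr hv) (mem_zpowers v))

theorem le_of_elem (hS : IsPGroup 2 S) (hTS : T ≤ S) {V : Subgroup G}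
    (hV : IsElementaryAbelian 2 V) (hVS : V ≤ S) (hTV : T ≤ normalizer (V : Set G)) : V ≤ T := by
  have h1 : T = T ⊔ V := by
    refine eq_of_inf_normalizer_le (hS.to_le (sup_le hTS hVS)) le_sup_left fun x hx => ?_
    obtain ⟨t, ht, v, hv, rfl⟩ := (mem_sup_iff_of_left_le_normalizer hTV).mp (mem_inf.mp hx).1
    have hvN : v ∈ normalizer (T : Set G) := by
      simpa using mul_mem (inv_mem (le_normalizer ht)) (mem_inf.mp hx).2
    refine mul_mem ht ?_
    by_contra hvT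
    have h2 := h.conjS_eq_of_isPGroup hS (hVS hv) hvN hvT
    have h3 := h.symm.conjS_eq_of_isPGroup hS (hVS hv) hvN hvT
    obtain ⟨q, hq, hq'⟩ := SetLike.not_le_iff_exists.mp h.not_le
    have hqT := h.b₁.syl.pCoreOf_le hq
    have h4 : q * (v * q⁻¹ * v⁻¹) ∈ V := by
      have := mul_mem (conj_mem_of_mem_normalizer (hTV hqT) hv) (inv_mem hv)
      convert this using 1; group
    rcases h.mem_or (mul_mem hqT (conj_mem_of_mem_normalizer hvN (inv_mem hqT)))
      (by rw [← pow_two]; exact hV.2 _ h4) with e | e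
    · have h5 : v * q⁻¹ * v⁻¹ ∈ pCoreOf 2 L₁ := by simpa using mul_mem (inv_mem hq) e
      rw [← h3, conj_mem_conjS, inv_mem_iff] at h5
      exact hq' h5
    · have h5 : v * q⁻¹ * v⁻¹ ∈ pCoreOf 2 L₂ := h2 ▸ conj_mem_conjS.mpr (inv_mem hq)
      exact hq' (by simpa only [mul_inv_cancel_right] using mul_mem e (inv_mem h5))
  exact h1 ▸ le_sup_right

theorem le_inf_of_normal (hS : IsPGroup 2 S) (hTS : T < S) {V : Subgroup G}
    (hV : IsElementaryAbelian 2 V) (hVS : V ≤ S) (hSV : S ≤ normalizer (V : Set G)) :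
    V ≤ pCoreOf 2 L₁ ⊓ pCoreOf 2 L₂ := by
  have := Fact.mk Nat.prime_two
  obtain ⟨g, hg, hgT⟩ := SetLike.not_le_iff_exists.mp
    (CfsgLib.Core.lt_inf_normalizer_of_isPGroup hS hTS).not_ge
  obtain ⟨hg1, hg2⟩ := mem_inf.mp hg
  have h1 := mem_normalizer_iff_conjS.mp (hSV hg1)
  rcases h.le_or hV (h.le_of_elem hS hTS.le hV hVS (hTS.le.trans hSV)) with e | e
  · exact le_inf e (h1 ▸ h.conjS_eq_of_isPGroup hS hg1 hg2 hgT ▸ conjS_mono e)
  · exact le_inf (h1 ▸ h.symm.conjS_eq_of_isPGroup hS hg1 hg2 hgT ▸ conjS_mono e) e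

theorem inf_le_omegaZ : pCoreOf 2 L₁ ⊓ pCoreOf 2 L₂ ≤ omegaZ 2 T := by
  refine le_omegaZ (elemAb_mono h.elemL inf_le_left) (inf_le_left.trans h.b₁.syl.pCoreOf_le) ?_
  conv_rhs => rw [← h.sup_eq]
  rw [centralizer_sup]
  exact inf_le_inf (elemAb_le_centralizer h.elemL) (elemAb_le_centralizer h.symm.elemL)

end Pair

theorem le_pCoreOf_of_isStronglyEmbedded {L E : Subgroup G} (h : IsStronglyEmbedded L)
    (hO : pCoreOf 2 L ≠ ⊥) (hE : IsElementaryAbelian 2 E) (hEL : E ≤ L) : E ≤ pCoreOf 2 L := by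
  have := Fact.mk Nat.prime_two
  obtain ⟨w, hw, hw2⟩ := exists_orderOf_of_isPGroup (isPGroup_pCoreOf (p := 2) L) hO
  intro a ha
  by_cases ha1 : a = 1
  · rw [ha1]; exact one_mem _
  have := CfsgLib.StrEmb.nontrivial_quotient h.1
  obtain ⟨g, hg⟩ := isConj_iff.mp ((CfsgLib.StrEmb.uniqueFix_of_isStronglyEmbedded h).isConj hw2
    (elemAb_orderOf hE ha ha1))
  have h1 : g⁻¹ ∈ L := CfsgLib.StrEmb.mem_of_conj_mem h hw2 (pCoreOf_le L hw)
    (by rw [inv_inv, hg]; exact hEL ha)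
  rw [← hg]
  exact conj_mem_of_mem_normalizer (le_normalizer_pCoreOf L (inv_mem_iff.mp h1)) hw

theorem Big.good {S T K L : Subgroup G} (h : Big T K L) (hO : pCore 2 G = ⊥)
    (hS : IsSylowIn 2 S ⊤) (hTS : T ≤ S) : Good S T L := by
  by_contra hne
  unfold Good at hne
  push Not at hne
  obtain ⟨hn, hall⟩ := hne
  obtain rfl := h.eq_of_normalizer_le hS hTS
    ((normalizer_le_normalizer_thompsonSubgroupOf T).trans hn)
  rcases (straddlingTwoSubgroups L).eq_empty_or_nonempty with e | e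
  · obtain ⟨P, rfl⟩ := hS.exists_sylow_top
    have h1 := (Cfsg.Agent.S2947.result h.hyp.hL h.hyp.hN h.hyp.hZ hO P L h.two hn).mpr e
    apply h.jc.J_not_le_centralizer
    refine le_trans (thompsonSubgroupOf_le_iff.mpr fun A hA => ?_)
      ((le_centralizer_omegaZ (pCoreOf 2 L)).trans (centralizer_anti (h.loc.wOf_le h.jc h.KL)))
    exact le_pCoreOf_of_isStronglyEmbedded h1 (isTwoLocal_pCoreOf_ne_bot h.two)
      (mem_maxElemIn.mp hA).2.1 ((mem_maxElemIn.mp hA).1.trans h.syl.le)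
  obtain ⟨T₀, hT₀⟩ := exists_mem_maxStraddling e
  have hs₀ : Str T L T₀ := ⟨h.hyp, hS, hn, hT₀⟩
  obtain ⟨g, hg, hT'⟩ := hs₀.exists_conj_le
  have hs := hs₀.conj hg
  generalize conjS g T₀ = T' at hT' hs
  obtain ⟨K', h1, h2, h3⟩ := hs.exists_outside
  obtain ⟨L', hb⟩ := hs.exists_big h1 h2 h3
  have hg' : Good T T' L' := Or.inr ⟨L, h.two, h.syl.le, fun e' =>
    h2 (h.isMaximal.2 L' hb.two e' ▸ hb.KL)⟩
  have hne : T' ≠ T := fun e' => h2 (hb.KL.trans (hall L' hb.two (e' ▸ hb.syl.le)))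
  obtain ⟨K₂, L₂, hp⟩ := hb.exists_pair hS hT' hg'
  have h4 := hp.le_inf_of_normal hS.isPGroup (lt_of_le_of_ne hT' hne)
    (elemAb_omegaZ (pCoreOf 2 L)) ((LAE.omegaZ_le _).trans h.syl.pCoreOf_le)
    (le_normalizer_omegaZ_of_le (h.syl.le.trans (le_normalizer_pCoreOf L)))
  have h5 : wOf K ≤ omegaZ 2 (thompsonSubgroupOf 2 T') :=
    (h.loc.wOf_le h.jc h.KL).trans (h4.trans (hp.inf_le_omegaZ.trans (hb.omegaZ_le le_rfl)))
  have h6 := card_le_card_of_le h5
  rw [h.jc.four.card] at h6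
  rcases hb.cases_of_good hS hT' hg' with ⟨-, e'⟩ | ⟨-, -, e'⟩ | ⟨-, e', e''⟩
  · omega
  · exact hne e'
  · rw [← CfsgLib.Core.eq_of_le_of_card_le h5 (by rw [e', h.jc.four.card])] at e''
    have h7 := relIndex_dvd_relIndex_of_le_normalizer (le_normalizer_wOf K)
      (normalizer_le_normalizer_centralizer (wOf K))
    rw [← inf_relIndex_left, h.jc.inf_centralizer_wOf, h.jc.idx] at h7
    have h8 := h7.trans (relIndex_dvd_of_le_left _ (inf_le_right : L' ⊓ _ ≤ _))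
    rw [e''] at h8
    norm_num at h8

theorem Str.exists_pair {S M T : Subgroup G} (h : Str S M T) (hO : pCore 2 G = ⊥) :
    ∃ K₁ L₁ K₂ L₂, Pair T K₁ L₁ K₂ L₂ := by
  obtain ⟨K, h1, h2, h3⟩ := h.exists_outside
  obtain ⟨L, hb⟩ := h.exists_big h1 h2 h3
  obtain ⟨S', hS', hTS⟩ := exists_isSylowIn_ge h.isPGroup le_top
  obtain ⟨K', L', hp⟩ := hb.exists_pair hS' hTS (hb.good hO hS' hTS)
  exact ⟨K, L, K', L', hp⟩

end CfsgLib.ZN
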