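import Mathlib
import Cfsg.Agent.Lib.ZN.Pair
import Cfsg.Agent.Lib.Transfer.Thompson

/-!
The transfer argument for the amalgam of two copies of `C₂ × S₄`, and the maximal `2`-local
subgroups of `O²(G)`.
-/

set_option autoImplicit false

open Subgroup Cfsg CfsgLib.LAE CfsgLib.PLocal CfsgLib.LocStr
open scoped commutatorElement

namespace CfsgLib.ZN

variable {G : Type*} [Group G] [Finite G]

theorem IsFour.eq_mul {W : Subgroup G} (hW : IsFour W) {a b x : G} (ha : a ∈ W) (hb : b ∈ W)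
    (hx : x ∈ W) (ha1 : a ≠ 1) (hb1 : b ≠ 1) (hab : a ≠ b) (hx1 : x ≠ 1) (hxa : x ≠ a)
    (hxb : x ≠ b) : x = a * b := by
  have := Fact.mk Nat.prime_two
  have hc : ∀ y ∈ W, y ≠ 1 → Nat.card (zpowers y) = 2 := fun y hy hy1 =>
    card_zpowers_of_pow_prime (hW.elem.2 y hy) hy1
  have hne : zpowers a ≠ zpowers b := fun e =>
    hab (eq_of_card_two (hc b hb hb1) (e ▸ mem_zpowers a) (mem_zpowers b) ha1 hb1)
  rw [← hW.sup_eq (zpowers_le.mpr ha) (zpowers_le.mpr hb) (hc a ha ha1) (hc b hb hb1) hne] at hx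
  obtain ⟨u, hu, v, hv, rfl⟩ := (mem_sup_iff_of_left_le_normalizer (le_normalizer_of_le_centralizer
    (((zpowers_le.mpr ha).trans hW.le_centralizer).trans
      (centralizer_anti (zpowers_le.mpr hb))))).mp hx
  have hu1 : u ≠ 1 := by
    rintro rfl
    rw [one_mul] at hx1 hxb
    exact hxb (eq_of_card_two (hc b hb hb1) hv (mem_zpowers b) hx1 hb1)
  have hv1 : v ≠ 1 := by
    rintro rfl
    rw [mul_one] at hx1 hxa
    exact hxa (eq_of_card_two (hc a ha ha1) hu (mem_zpowers a) hx1 ha1)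
  rw [eq_of_card_two (hc a ha ha1) hu (mem_zpowers a) hu1 ha1,
    eq_of_card_two (hc b hb hb1) hv (mem_zpowers b) hv1 hb1]

theorem IsFour.exists_conj {W : Subgroup G} (hW : IsFour W) {d : G}
    (hd : d ∈ normalizer (W : Set G)) (hf : W ⊓ centralizer ({d} : Set G) = ⊥) {w x : G}
    (hw : w ∈ W) (hw1 : w ≠ 1) (hx : x ∈ W) (hx1 : x ≠ 1) : ∃ g : G, x = g * w * g⁻¹ := by
  have hc : ∀ y : G, y ≠ 1 → d * y * d⁻¹ ≠ 1 := fun y hy e => hy (by
    calc y = d⁻¹ * (d * y * d⁻¹) * d := by group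
      _ = 1 := by rw [e]; group)
  have h1 := conj_mem_of_mem_normalizer hd hw
  have h2 : w ≠ d * w * d⁻¹ := fun e => hw1 (eq_one_of_fpf hf hw e.symm)
  by_cases e1 : x = w
  · exact ⟨1, by rw [e1]; group⟩
  by_cases e2 : x = d * w * d⁻¹
  · exact ⟨d, e2⟩
  have h3 := hW.eq_mul hw h1 hx hw1 (hc w hw1) h2 hx1 e1 e2
  by_cases e3 : d * (d * w * d⁻¹) * d⁻¹ = w
  · exfalso
    apply hx1
    refine eq_one_of_fpf hf hx ?_
    calc d * x * d⁻¹ = (d * w * d⁻¹) * (d * (d * w * d⁻¹) * d⁻¹) := by rw [h3]; group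
      _ = x := by rw [e3, h3, hW.comm hw h1]
  · refine ⟨d * d, ?_⟩
    rw [h3, ← hW.eq_mul hw h1 (conj_mem_of_mem_normalizer hd h1) hw1 (hc w hw1) h2
      (hc _ (hc w hw1)) e3 fun e => hc w hw1 (eq_one_of_fpf hf h1 e)]
    group

theorem not_mem_pResOf_of_transfer {S Q : Subgroup G} (hS : IsSylowIn 2 S ⊤) (hQ : Q ≤ S)
    (hc : ⁅S, S⁆ ≤ Q) {z : G} (hz : z ∈ S) (hz2 : z * z = 1) (hzQ : z ∉ Q)
    (key : ∀ g : G, g⁻¹ * z * g ∈ S → g⁻¹ * z * g * z ∈ Q) : z ∉ pResOf 2 (⊤ : Subgroup G) := by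
  have := Fact.mk Nat.prime_two
  intro hzO
  have hz1 : z ≠ 1 := fun e => hzQ (e ▸ one_mem _)
  have hzi : z⁻¹ = z := inv_eq_of_mul_eq_one_right hz2
  let ϕ : S →* Abelianization S := Abelianization.of
  have hsurj : Function.Surjective ϕ := fun x => QuotientGroup.mk_surjective x
  have hA : IsPGroup 2 (Abelianization S) := hS.isPGroup.of_surjective ϕ hsurj
  set B := (Q.subgroupOf S).map ϕ with hB
  have ha2 : ϕ ⟨z, hz⟩ ^ 2 = 1 := by
    rw [← map_pow, ← ϕ.map_one]; congr 1; exact Subtype.ext (by simpa [pow_two] using hz2)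
  have h1 := CfsgLib.Transfer.transfer_mul_inv_pow_mem_of_prime ϕ B Nat.prime_two z
    (CfsgLib.StrEmb.orderOf_eq_two hz2 hz1) (ϕ ⟨z, hz⟩) (ha2 ▸ one_mem _) fun t ht => by
      rw [← map_inv, ← map_mul]
      refine mem_map_of_mem _ (mem_subgroupOf.mpr ?_)
      simpa [hzi] using key t ht
  have h2 : pResOf 2 (⊤ : Subgroup G) ≤ (MonoidHom.transfer ϕ).ker :=
    pResOf_le_of_forall_pow_mem fun g _ => by
      obtain ⟨k, hk⟩ := hA (MonoidHom.transfer ϕ g)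
      exact ⟨k, by rw [MonoidHom.mem_ker, map_pow, hk]⟩
  rw [MonoidHom.mem_ker.mp (h2 hzO), one_mul, inv_mem_iff] at h1
  have h3 : ϕ ⟨z, hz⟩ ∈ B := mem_of_pow_mem_of_pow_mem (b := 2)
    (by rw [← relIndex_top_right]; exact hS.coprime_relIndex) h1 (ha2 ▸ one_mem _)
  obtain ⟨q, hq, e⟩ := h3
  have h4 : q⁻¹ * ⟨z, hz⟩ ∈ ϕ.ker := by rw [MonoidHom.mem_ker, map_mul, map_inv, e, inv_mul_cancel]
  rw [Abelianization.ker_of] at h4
  have h5 := mem_map_of_mem S.subtype h4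
  rw [_root_.commutator_def, map_commutator, ← MonoidHom.range_eq_map, range_subtype] at h5
  exact hzQ (by simpa using mul_mem (mem_subgroupOf.mp hq) (hc h5))

/-- The central involution of `L = K T ≅ C₂ × S₄`. -/
structure Cz (K L : Subgroup G) (z : G) : Prop where
  cent : z ∈ centralizer (L : Set G)
  sq : z * z = 1
  nsq : ∀ x : G, x * x ≠ z
  le : centralizer ({z} : Set G) ≤ L
  core : pCoreOf 2 L = wOf K ⊔ zpowers z
  card : Nat.card (pCoreOf 2 L) = 8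

omit [Finite G] in
theorem Cz.ne_one {K L : Subgroup G} {z : G} (h : Cz K L z) : z ≠ 1 :=
  fun e => h.nsq 1 (by rw [e, mul_one])

omit [Finite G] in
theorem Cz.mem {K L : Subgroup G} {z : G} (h : Cz K L z) : z ∈ pCoreOf 2 L :=
  h.core ▸ mem_sup_right (mem_zpowers z)

omit [Finite G] in
theorem Cz.nsq_conj {K L : Subgroup G} {z : G} (h : Cz K L z) (g x : G) : x * x ≠ g * z * g⁻¹ :=
  fun e => h.nsq (g⁻¹ * x * g) (by
    calc g⁻¹ * x * g * (g⁻¹ * x * g) = g⁻¹ * (x * x) * g := by group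
      _ = z := by rw [e]; group)

omit [Finite G] in
theorem eq_or_eq_mul_of_mem_sup {U : Subgroup G} {z x : G} (hz : z ∈ normalizer (U : Set G))
    (hz2 : z * z ∈ U) (hx : x ∈ U ⊔ zpowers z) : x ∈ U ∨ x * z⁻¹ ∈ U := by
  obtain ⟨u, hu, y, hy, rfl⟩ := (mem_sup_iff_of_right_le_normalizer (zpowers_le.mpr hz)).mp hx
  obtain ⟨k, rfl⟩ := mem_zpowers_iff.mp hy
  have h2 : ∀ j : ℤ, z ^ (2 * j) ∈ U := fun j => by
    rw [zpow_mul, zpow_two]; exact zpow_mem hz2 j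
  rcases Int.even_or_odd' k with ⟨j, rfl | rfl⟩
  · exact Or.inl (mul_mem hu (h2 j))
  · right
    rw [zpow_add, zpow_one, ← mul_assoc, mul_inv_cancel_right]
    exact mul_mem hu (h2 j)

namespace Pair

variable {S T K₁ L₁ K₂ L₂ : Subgroup G} (h : Pair T K₁ L₁ K₂ L₂)
include h

theorem exists_cz
    (e : (K₁ ⊔ T : Subgroup G) ≃* Multiplicative (ZMod 2) × Equiv.Perm (Fin 4)) :
    ∃ z, Cz K₁ L₁ z := by
  obtain ⟨-, -, -, -, -, h8⟩ := h.b₁.pCoreOf_eq_of_equiv_prod h.n₁ e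
  set z := e.symm (Multiplicative.ofAdd 1, 1) with hz
  have hc : (z : G) ∈ centralizer ((K₁ ⊔ T : Subgroup G) : Set G) := by
    intro p hp
    have : (⟨p, hp⟩ : (K₁ ⊔ T : Subgroup G)) * z = z * ⟨p, hp⟩ := e.injective (by
      rw [map_mul, map_mul, hz, e.apply_symm_apply]
      exact Prod.ext (mul_comm _ _) (by simp))
    exact congrArg Subtype.val this
  have hz2 : (z : G) * z = 1 := by
    have : z * z = 1 := by rw [hz, ← map_mul, ← e.symm.map_one]; congr 1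
    exact congrArg Subtype.val this
  have hz1 : (z : G) ≠ 1 := fun h' => by
    have : z = 1 := Subtype.ext h'
    rw [hz, e.symm.map_eq_one_iff] at this
    exact absurd this (by decide)
  have hzW : (z : G) ∉ wOf K₁ := fun h' => hz1 (by
    rw [← mem_bot, ← h.b₁.jc.inf_centralizer_eq_bot]
    exact mem_inf.mpr ⟨h', centralizer_anti le_sup_left hc⟩)
  have hle : wOf K₁ ⊔ zpowers (z : G) ≤ pCoreOf 2 (K₁ ⊔ T) := sup_le (h.b₁.wOf_le_P h.n₁)
    (zpowers_le.mpr (h.b₁.sc_P (centralizer_anti (pCoreOf_le _) hc)))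
  have h2 := two_mul_card_le_of_lt (lt_of_le_of_ne (le_sup_left : wOf K₁ ≤ wOf K₁ ⊔ zpowers (z : G))
    fun e' => hzW (e' ▸ (le_sup_right : zpowers (z : G) ≤ _) (mem_zpowers _)))
  rw [h.b₁.jc.four.card] at h2
  have h3 : centralizer ({(z : G)} : Set G) ≤ L₁ := by
    rw [← CfsgLib.Core.centralizer_zpowers]
    refine (centralizer_le_normalizer _).trans (h.b₁.normalizer_le
      (elemAb_isPGroup (elemAb_zpowers (by rw [pow_two, hz2]))) (by simpa using hz1)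
      (le_normalizer_of_le_centralizer (le_centralizer_iff.mp (zpowers_le.mpr
        (centralizer_anti (sup_le_sup_left (thompsonSubgroupOf_le T) K₁) hc)))))
  refine ⟨z, h.L_eq ▸ hc, hz2, fun x hx => ?_, h3,
    h.L_eq ▸ (CfsgLib.Core.eq_of_le_of_card_le hle (by omega)).symm, h.L_eq ▸ h8⟩
  have h4 : x ∈ K₁ ⊔ T := h.L_eq ▸ h3 (by
    rw [mem_centralizer_singleton_iff, ← hx, mul_assoc])
  have h5 : (⟨x, h4⟩ : (K₁ ⊔ T : Subgroup G)) * ⟨x, h4⟩ = z := Subtype.ext hx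
  have h6 := congrArg (fun y => (e y).1) h5
  simp only [map_mul, hz, MulEquiv.apply_symm_apply, Prod.fst_mul] at h6
  revert h6
  generalize (e ⟨x, h4⟩).1 = c
  revert c
  decide

theorem wOf_le : wOf K₁ ≤ pCoreOf 2 L₁ := h.L_eq ▸ h.b₁.wOf_le_P h.n₁

omit [Finite G] in
theorem T_le_normalizer : T ≤ normalizer (wOf K₁ : Set G) :=
  h.n₁.trans (normalizer_le_normalizer_wOf K₁)

theorem normalizer_wOf : normalizer (wOf K₁ : Set G) = L₁ :=
  h.b₁.isMaximal.2 _ h.b₁.jc.isTwoLocal (h.L_eq ▸ Big.P_le_normalizer h.n₁)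

theorem conjS_wOf_eq {v : G} (hv : v ∈ normalizer (T : Set G)) (hv' : v ∉ L₁) :
    conjS v (wOf K₁) = wOf K₂ := by
  have h1 : ∀ {K L : Subgroup G}, Big T K L → normalizer (pCoreOf 2 L : Set G) = L := fun hb =>
    le_antisymm hb.normalizer_pCoreOf_le (le_normalizer_pCoreOf _)
  have h2 : conjS v L₁ = L₂ := by
    rw [← h1 h.b₁, conjS_normalizer, h.conjS_eq hv hv', h1 h.b₂]
  have h3 := congrArg (pResOf 2) h2
  rw [← conjS_pResOf, h.L_eq, h.symm.L_eq, h.b₁.jc.pResOf_sup h.b₁.syl.isPGroup h.n₁,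
    h.b₂.jc.pResOf_sup h.b₂.syl.isPGroup h.n₂] at h3
  rw [conjS_wOf, h3]

theorem mem_of_mem_L (hS : IsPGroup 2 S) {v : G} (hvS : v ∈ S) (hv : v ∈ normalizer (T : Set G))
    (e : v ∈ L₁) : v ∈ T :=
  h.b₁.syl.le_of_normalizes (hS.to_le (zpowers_le.mpr hvS)) (zpowers_le.mpr e)
    (zpowers_le.mpr hv) (mem_zpowers v)

theorem mul_mem_T (hS : IsPGroup 2 S) {x y : G} (hx : x ∈ S ⊓ normalizer (T : Set G))
    (hy : y ∈ S ⊓ normalizer (T : Set G)) (hx' : x ∉ T) (hy' : y ∉ T) : x * y ∈ T := by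
  obtain ⟨hx1, hx2⟩ := mem_inf.mp hx
  obtain ⟨hy1, hy2⟩ := mem_inf.mp hy
  refine h.mem_of_mem_L hS (mul_mem hx1 hy1) (mul_mem hx2 hy2) (h.b₁.normalizer_pCoreOf_le ?_)
  rw [mem_normalizer_iff_conjS, conjS_mul, h.conjS_eq_of_isPGroup hS hy1 hy2 hy',
    h.symm.conjS_eq_of_isPGroup hS hx1 hx2 hx']

variable {z₁ z₂ : G} (h₁ : Cz K₁ L₁ z₁) (h₂ : Cz K₂ L₂ z₂)

include h₁ in
theorem commutator_core_le : ⁅pCoreOf 2 L₁, T⁆ ≤ wOf K₁ := by
  rw [h₁.core]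
  refine CfsgLib.Core.commutator_sup_left_le le_normalizer
    (zpowers_le.mpr (h.T_le_normalizer (h.b₁.syl.pCoreOf_le h₁.mem)))
    (commutator_le_left_of_le_normalizer h.T_le_normalizer) ?_
  rw [commutator_eq_bot_iff_le_centralizer.mpr
    (zpowers_le.mpr (centralizer_anti h.b₁.syl.le h₁.cent))]
  exact bot_le

include h₁ in
theorem mem_inf_core : z₁ ∈ pCoreOf 2 L₁ ⊓ pCoreOf 2 L₂ :=
  mem_inf.mpr ⟨h₁.mem, h.b₂.sc
    (centralizer_anti (h.b₂.syl.pCoreOf_le.trans h.b₁.syl.le) h₁.cent)⟩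

include h₁ in
theorem isFour_inf : IsFour (pCoreOf 2 L₁ ⊓ pCoreOf 2 L₂) := by
  refine ⟨?_, elemAb_mono h.elemL inf_le_left⟩
  have h1 := card_sup_mul_card_inf (A := pCoreOf 2 L₁) (B := pCoreOf 2 L₂)
    ((h.b₁.syl.pCoreOf_le.trans h.b₂.syl.le).trans (le_normalizer_pCoreOf L₂))
  have h2 := CfsgLib.Core.card_mul_relIndex_of_le h.b₁.syl.pCoreOf_le
  rw [h.sup_eq, ← h.card_eq, h₁.card] at h1
  rw [h.idxL, h₁.card] at h2
  rw [← h2] at h1
  omega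

include h₁ h₂

theorem exists_w : ∃ w ∈ wOf K₁ ⊓ wOf K₂, w ≠ 1 ∧ (∃ y : G, y * y = w) ∧ z₂ = z₁ * w := by
  obtain ⟨a, ha, ha'⟩ := SetLike.not_le_iff_exists.mp h.not_le
  obtain ⟨b, hb, hb'⟩ := SetLike.not_le_iff_exists.mp h.symm.not_le
  have haT := h.b₁.syl.pCoreOf_le ha
  have hbT := h.b₂.syl.pCoreOf_le hb
  have ha2 : a⁻¹ = a := inv_eq_of_mul_eq_one_right (by rw [← pow_two]; exact h.elemL.2 a ha)
  have hb2 : b⁻¹ = b := inv_eq_of_mul_eq_one_right (by rw [← pow_two]; exact h.symm.elemL.2 b hb)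
  have h1 : a * b * (a * b) = ⁅a, b⁆ := by rw [commutatorElement_def, ha2, hb2]; group
  have h2 : ⁅a, b⁆ ∈ wOf K₁ ⊓ wOf K₂ := mem_inf.mpr
    ⟨h.commutator_core_le h₁ (commutator_mem_commutator ha hbT), by
      rw [← commutatorElement_inv]
      exact inv_mem (h.symm.commutator_core_le h₂ (commutator_mem_commutator hb haT))⟩
  have h3 : ⁅a, b⁆ ≠ 1 := fun e => by
    rcases h.mem_or (mul_mem haT hbT) (h1.trans e) with e' | e'
    · exact hb' (by simpa using mul_mem (inv_mem ha) e')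
    · exact ha' (by simpa using mul_mem e' (inv_mem hb))
  refine ⟨⁅a, b⁆, h2, h3, ⟨_, h1⟩, (h.isFour_inf h₁).eq_mul (h.mem_inf_core h₁)
    (inf_le_inf h.wOf_le h.symm.wOf_le h2) (inf_comm (pCoreOf 2 L₂) _ ▸ h.symm.mem_inf_core h₂)
    h₁.ne_one h3 (fun e => h₁.nsq _ (h1.trans e.symm)) h₂.ne_one (fun e => h.ne ?_)
    fun e => h₂.nsq _ (h1.trans e.symm)⟩
  refine h.b₂.KL.trans (le_trans (fun x hx => ?_) h₁.le)
  rw [mem_centralizer_singleton_iff, ← e]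
  exact h₂.cent x hx

theorem core_inf_wOf_le : pCoreOf 2 L₁ ⊓ wOf K₂ ≤ wOf K₁ := by
  obtain ⟨w, hw, hw1, -⟩ := h.exists_w h₁ h₂
  have h1 := h.b₂.jc.four.card_inf_centralizer h.b₂.syl.isPGroup h.symm.T_le_normalizer
    fun e => h.b₂.jc.J_not_le_centralizer ((thompsonSubgroupOf_le T).trans e)
  have h2 : pCoreOf 2 L₁ ⊓ wOf K₂ ≤ wOf K₂ ⊓ centralizer (T : Set G) := le_inf inf_le_right
    (((inf_le_inf_left _ h.symm.wOf_le).trans h.inf_le_omegaZ).trans (omegaZ_le_centralizer T))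
  exact h2.trans (le_of_card_two h1 (h2 (inf_le_inf_right _ h.wOf_le hw)) hw1 (mem_inf.mp hw).1)

theorem sq_of_mem_wOf {x : G} (hx : x ∈ wOf K₁) : ∃ y : G, y * y = x := by
  obtain ⟨w, hw, hw1, ⟨y, hy⟩, -⟩ := h.exists_w h₁ h₂
  by_cases hx1 : x = 1
  · exact ⟨1, by rw [hx1, mul_one]⟩
  obtain ⟨d, hd, -, hd'⟩ := h.b₁.jc.exists_odd
  obtain ⟨g, rfl⟩ := h.b₁.jc.four.exists_conj (le_normalizer_wOf K₁ hd) (h.b₁.jc.fpf hd hd')
    (mem_inf.mp hw).1 hw1 hx hx1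
  exact ⟨g * y * g⁻¹, by rw [← hy]; group⟩

theorem sq_of_mem_U {x : G} (hx : x ∈ wOf K₁ ⊔ wOf K₂) (hx2 : x * x = 1) : ∃ y : G, y * y = x := by
  have hT₁ := h.wOf_le.trans h.b₁.syl.pCoreOf_le
  have hT₂ := h.symm.wOf_le.trans h.b₂.syl.pCoreOf_le
  obtain ⟨a, ha, b, hb, rfl⟩ :=
    (mem_sup_iff_of_left_le_normalizer (hT₁.trans h.symm.T_le_normalizer)).mp hx
  rcases h.mem_or (mul_mem (hT₁ ha) (hT₂ hb)) hx2 with e | e
  · refine h.sq_of_mem_wOf h₁ h₂ (mul_mem ha (h.core_inf_wOf_le h₁ h₂ (mem_inf.mpr ⟨?_, hb⟩)))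
    simpa using mul_mem (inv_mem (h.wOf_le ha)) e
  · refine h.symm.sq_of_mem_wOf h₂ h₁
      (mul_mem (h.symm.core_inf_wOf_le h₂ h₁ (mem_inf.mpr ⟨?_, ha⟩)) hb)
    simpa using mul_mem e (inv_mem (h.symm.wOf_le hb))

theorem T_eq : T = wOf K₁ ⊔ wOf K₂ ⊔ zpowers z₁ := by
  obtain ⟨w, hw, -, -, e⟩ := h.exists_w h₁ h₂
  refine le_antisymm ?_ (sup_le (sup_le (h.wOf_le.trans h.b₁.syl.pCoreOf_le)
    (h.symm.wOf_le.trans h.b₂.syl.pCoreOf_le)) (zpowers_le.mpr (h.b₁.syl.pCoreOf_le h₁.mem)))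
  conv_lhs => rw [← h.sup_eq, h₁.core, h₂.core]
  refine sup_le (sup_le_sup_right le_sup_left _) (sup_le (le_sup_right.trans le_sup_left) ?_)
  rw [zpowers_le, e]
  exact mul_mem (mem_sup_right (mem_zpowers _)) (mem_sup_left (mem_sup_left (mem_inf.mp hw).1))

theorem conj_z (hS : IsPGroup 2 S) {v : G} (hvS : v ∈ S) (hv : v ∈ normalizer (T : Set G))
    (hv' : v ∉ T) : v * z₁ * v⁻¹ = z₂ := by
  obtain ⟨w, hw, hw1, ⟨y, hy⟩, e⟩ := h.exists_w h₁ h₂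
  have h1 := h.conjS_eq_of_isPGroup hS hvS hv hv'
  have h2 := h.symm.conjS_eq_of_isPGroup hS hvS hv hv'
  obtain ⟨h3, h4⟩ := mem_inf.mp (h.mem_inf_core h₁)
  rw [e]
  refine (h.isFour_inf h₁).eq_mul (h.mem_inf_core h₁) (inf_le_inf h.wOf_le h.symm.wOf_le hw)
    (mem_inf.mpr ⟨h2 ▸ conj_mem_conjS.mpr h4, h1 ▸ conj_mem_conjS.mpr h3⟩) h₁.ne_one hw1
    (fun e' => h₁.nsq y (hy.trans e'.symm)) (fun e' => h₁.nsq_conj v 1 (by rw [e', mul_one]))
    (fun e' => hv' (h.mem_of_mem_L hS hvS hv (h₁.le ?_))) fun e' => h₁.nsq_conj v y (hy.trans e'.symm)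
  rw [mem_centralizer_singleton_iff]
  exact mul_inv_eq_iff_eq_mul.mp e'

theorem le_normalizer_T (hS : IsPGroup 2 S) (hTS : T ≤ S) : S ≤ normalizer (T : Set G) := by
  have key : ∀ E ≤ S ⊓ normalizer (T : Set G), IsElementaryAbelian 2 E → Nat.card E = 8 →
      E ≤ T := by
    intro E hE he hc
    by_contra hne
    have h1 := relIndex_two_of_mul_mem hne fun x hx y hy hx' hy' =>
      h.mul_mem_T hS (hE hx) (hE hy) hx' hy'
    have h2 := CfsgLib.Core.card_inf_mul_relIndex T E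
    rw [h1, hc] at h2
    obtain ⟨v, hv, hv'⟩ := SetLike.not_le_iff_exists.mp hne
    obtain ⟨hv1, hv2⟩ := mem_inf.mp (hE hv)
    have h3 : conjS v (T ⊓ E) = T ⊓ E := mem_normalizer_iff_conjS.mp
      (le_normalizer_of_le_centralizer ((elemAb_le_centralizer he).trans
        (centralizer_anti inf_le_right)) hv)
    have h4 : T ⊓ E ≤ pCoreOf 2 L₁ ⊓ pCoreOf 2 L₂ := by
      rcases h.le_or (elemAb_mono he (inf_le_right : T ⊓ E ≤ E)) inf_le_left with e | e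
      · exact le_inf e (h3 ▸ h.conjS_eq_of_isPGroup hS hv1 hv2 hv' ▸ conjS_mono e)
      · exact le_inf (h3 ▸ h.symm.conjS_eq_of_isPGroup hS hv1 hv2 hv' ▸ conjS_mono e) e
    have h5 := CfsgLib.Core.eq_of_le_of_card_le h4 (by rw [(h.isFour_inf h₁).card]; omega)
    have h6 : z₁ ∈ E := (mem_inf.mp (h5 ▸ h.mem_inf_core h₁)).2
    exact hv' (h.mem_of_mem_L hS hv1 hv2
      (h₁.le (mem_centralizer_singleton_iff.mpr (elemAb_comm he hv h6))))
  refine inf_eq_left.mp (eq_of_inf_normalizer_le hS inf_le_left fun x hx => ?_)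
  obtain ⟨hx1, hx2⟩ := mem_inf.mp hx
  refine mem_inf.mpr ⟨hx1, mem_normalizer_of_conjS_le ?_⟩
  have h1 : ∀ Q ≤ T, conjS x Q ≤ S ⊓ normalizer (T : Set G) := fun Q hQ =>
    (conjS_mono (hQ.trans (le_inf hTS le_normalizer))).trans (mem_normalizer_iff_conjS.mp hx2).le
  conv_lhs => rw [← h.sup_eq, conjS_sup]
  exact sup_le (key _ (h1 _ h.b₁.syl.pCoreOf_le) (elemAb_map h.elemL _)
    (by rw [card_conjS, h₁.card])) (key _ (h1 _ h.b₂.syl.pCoreOf_le) (elemAb_map h.symm.elemL _)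
    (by rw [card_conjS, h₂.card]))

theorem not_mem_pResOf : z₁ ∉ pResOf 2 (⊤ : Subgroup G) := by
  obtain ⟨S, hS, hTS⟩ := exists_isSylowIn_ge h.b₁.syl.isPGroup le_top
  have hSp := hS.isPGroup
  have hST := h.le_normalizer_T h₁ h₂ hSp hTS
  obtain ⟨w, hw, hw1, -, hz₂⟩ := h.exists_w h₁ h₂
  obtain ⟨hw₁, hw₂⟩ := mem_inf.mp hw
  have hT₁ := h.wOf_le.trans h.b₁.syl.pCoreOf_le
  have hT₂ := h.symm.wOf_le.trans h.b₂.syl.pCoreOf_le
  have hTeq := h.T_eq h₁ h₂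
  set U := wOf K₁ ⊔ wOf K₂ with hU
  have hUT : U ≤ T := sup_le hT₁ hT₂
  have hzT : z₁ ∈ T := h.b₁.syl.pCoreOf_le h₁.mem
  have hzi : z₁⁻¹ = z₁ := inv_eq_of_mul_eq_one_right h₁.sq
  have hzc : ∀ t ∈ T, t * z₁ = z₁ * t := fun t ht => h₁.cent t (h.b₁.syl.le ht)
  have hswap : ∀ v ∈ S, v ∉ T → conjS v (wOf K₁) = wOf K₂ ∧ conjS v (wOf K₂) = wOf K₁ :=
    fun v hv hv' => ⟨h.conjS_wOf_eq (hST hv) fun e => hv' (h.mem_of_mem_L hSp hv (hST hv) e),
      h.symm.conjS_wOf_eq (hST hv) fun e => hv' (h.symm.mem_of_mem_L hSp hv (hST hv) e)⟩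
  have hSU : S ≤ normalizer (U : Set G) := fun v hv => by
    by_cases hv' : v ∈ T
    · exact le_normalizer_sup h.T_le_normalizer h.symm.T_le_normalizer hv'
    · rw [mem_normalizer_iff_conjS, hU, conjS_sup, (hswap v hv hv').1, (hswap v hv hv').2, sup_comm]
  have hzv : ∀ v ∈ S, v ∉ T → v * z₁ * v⁻¹ = z₁ * w := fun v hv hv' =>
    hz₂ ▸ h.conj_z h₁ h₂ hSp hv (hST hv) hv'
  have hTU : ⁅T, S⁆ ≤ U := by
    conv_lhs => rw [hTeq]
    refine CfsgLib.Core.commutator_sup_left_le le_normalizer (zpowers_le.mpr (hSU (hTS hzT)))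
      (commutator_le_left_of_le_normalizer hSU)
      (CfsgLib.Core.commutator_zpowers_left_le (hSU (hTS hzT)) fun v hv => ?_)
    by_cases hv' : v ∈ T
    · rw [commutatorElement_eq_one_iff_mul_comm.mpr (hzc v hv').symm]; exact one_mem _
    · have : ⁅z₁, v⁆ = w := by
        calc ⁅z₁, v⁆ = z₁ * (v * z₁ * v⁻¹) := by rw [commutatorElement_def, hzi]; group
          _ = w := by rw [hzv v hv hv', ← mul_assoc, h₁.sq, one_mul]
      exact this ▸ mem_sup_left hw₁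
  have hmul : ∀ x ∈ S, ∀ y ∈ S, x ∉ T → y ∉ T → x * y ∈ T := fun x hx y hy =>
    h.mul_mem_T hSp (mem_inf.mpr ⟨hx, hST hx⟩) (mem_inf.mpr ⟨hy, hST hy⟩)
  have hSS : ⁅S, S⁆ ≤ U := by
    rw [Subgroup.commutator_le]
    intro x hx y hy
    by_cases hx' : x ∈ T
    · exact hTU (commutator_mem_commutator hx' hy)
    by_cases hy' : y ∈ T
    · rw [← commutatorElement_inv]; exact inv_mem (hTU (commutator_mem_commutator hy' hx))
    have := hTU (commutator_mem_commutator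
      (hmul x hx y⁻¹ (inv_mem hy) hx' fun e => hy' (inv_mem_iff.mp e)) hy)
    convert this using 1
    simp only [commutatorElement_def]; group
  have hsq : ∀ g : G, g⁻¹ * z₁ * g * (g⁻¹ * z₁ * g) = 1 := fun g => by
    calc g⁻¹ * z₁ * g * (g⁻¹ * z₁ * g) = g⁻¹ * (z₁ * z₁) * g := by group
      _ = 1 := by rw [h₁.sq]; group
  have hnU : ∀ g : G, g⁻¹ * z₁ * g ∉ U := fun g e => by
    obtain ⟨y, hy⟩ := h.sq_of_mem_U h₁ h₂ e (hsq g)
    exact h₁.nsq_conj g⁻¹ y (by rw [hy, inv_inv])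
  have hor : ∀ x ∈ T, x ∈ U ∨ x * z₁ ∈ U := fun x hx => by
    have := eq_or_eq_mul_of_mem_sup (hSU (hTS hzT)) (h₁.sq ▸ one_mem _) (hTeq ▸ hx)
    rwa [hzi] at this
  by_cases hinv : ∀ t ∈ S, t * t = 1 → t ∈ T
  · exact not_mem_pResOf_of_transfer hS (hUT.trans hTS) hSS (hTS hzT) h₁.sq
      (by simpa using hnU 1) fun g hg => (hor _ (hinv _ hg (hsq g))).resolve_left (hnU g)
  push Not at hinv
  obtain ⟨t, ht, ht2, htT⟩ := hinv
  have hti : t⁻¹ = t := inv_eq_of_mul_eq_one_right ht2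
  have hw2 : w * w = 1 := h.b₁.jc.four.mul_self hw₁
  have hWW : ∀ c ∈ wOf K₁, c ∈ wOf K₂ → c = 1 ∨ c = w := fun c hc1 hc2 => by
    have h1 := h.b₁.jc.four.card_eq_two (inf_le_left : wOf K₁ ⊓ wOf K₂ ≤ _)
      (fun e => hw1 (by rwa [e, mem_bot] at hw)) fun e => h.ne (by
        rw [← h.normalizer_wOf, h.b₂.jc.four.eq_of_le h.b₁.jc.four (inf_eq_left.mp e)]
        exact le_normalizer_wOf K₂)
    by_cases hc : c = 1
    · exact Or.inl hc
    · exact Or.inr (eq_of_card_two h1 (mem_inf.mpr ⟨hc1, hc2⟩) hw hc hw1)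
  have hwc : ∀ x ∈ T, x * w = w * x := fun x hx => omegaZ_le_centralizer T
    (h.inf_le_omegaZ (inf_le_inf h.wOf_le h.symm.wOf_le hw)) x hx
  have htw : t * w * t⁻¹ = w := by
    refine (hWW _ ((hswap t ht htT).2 ▸ conj_mem_conjS.mpr hw₂)
      ((hswap t ht htT).1 ▸ conj_mem_conjS.mpr hw₁)).resolve_left fun e => hw1 ?_
    calc w = t⁻¹ * (t * w * t⁻¹) * t := by group
      _ = 1 := by rw [e]; group
  have hno : ∀ u ∈ U, t * z₁ * u * (t * z₁ * u) ≠ 1 := by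
    intro u hu e
    obtain ⟨a, ha, b, hb, rfl⟩ :=
      (mem_sup_iff_of_left_le_normalizer (hT₁.trans h.symm.T_le_normalizer)).mp hu
    have ha' : t * a * t⁻¹ ∈ wOf K₂ := (hswap t ht htT).1 ▸ conj_mem_conjS.mpr ha
    have hb' : t * b * t⁻¹ ∈ wOf K₁ := (hswap t ht htT).2 ▸ conj_mem_conjS.mpr hb
    have h1 : (t * a * t⁻¹) * ((t * b * t⁻¹) * a) * b = w := by
      have h2 := hzc _ (mul_mem (hT₁ hw₁) (mul_mem (hT₂ ha') (hT₁ hb')))
      have h3 : w * ((t * a * t⁻¹) * ((t * b * t⁻¹) * a) * b) = 1 := by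
        calc w * ((t * a * t⁻¹) * ((t * b * t⁻¹) * a) * b)
            = z₁⁻¹ * (z₁ * (w * ((t * a * t⁻¹) * (t * b * t⁻¹)))) * (a * b) := by group
          _ = z₁ * w * (t * (a * b) * t⁻¹) * z₁ * (a * b) := by rw [← h2, hzi]; group
          _ = t * z₁ * (a * b) * (t⁻¹ * z₁ * (a * b)) := by rw [← hzv t ht htT]; group
          _ = 1 := by rw [hti, e]
      rw [← inv_eq_of_mul_eq_one_right h3, inv_eq_of_mul_eq_one_right hw2]
    have h2 : t * b * t⁻¹ * a ∈ wOf K₂ := by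
      have := mul_mem (mul_mem (inv_mem ha') hw₂) (inv_mem hb)
      rw [← h1] at this
      convert this using 1; group
    have h3 : ∀ c, t * b * t⁻¹ * a = c → t * c * t⁻¹ = c → c * c = 1 →
        c * (t * a * t⁻¹) = t * a * t⁻¹ * c → False := fun c e1 e2 e3 e4 => by
      have e5 : b * (t * a * t⁻¹) = c := by
        rw [← e2, ← e1]
        calc b * (t * a * t⁻¹) = (t * t) * b * (t * t)⁻¹ * (t * a * t⁻¹) := by rw [ht2]; group
          _ = _ := by group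
      apply hw1
      rw [← h1, e1, ← e4, mul_assoc, h.b₂.jc.four.comm ha' hb, e5, e3]
    rcases hWW _ (mul_mem hb' ha) h2 with e' | e'
    · exact h3 1 e' (by group) (by group) (by group)
    · exact h3 w e' htw hw2 (hwc _ (hT₂ ha')).symm
  have hvS : t * z₁ ∈ S := mul_mem ht (hTS hzT)
  have hvT : t * z₁ ∉ T := fun e => htT (by simpa using mul_mem e (inv_mem hzT))
  have hv2 : t * z₁ * (t * z₁) ∈ U := by
    have : t * z₁ * (t * z₁) = w := by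
      calc t * z₁ * (t * z₁) = t * z₁ * t⁻¹ * z₁ := by rw [hti]; group
        _ = w := by rw [hzv t ht htT, mul_assoc, hzc w (hT₁ hw₁), ← mul_assoc, h₁.sq, one_mul]
    exact this ▸ mem_sup_left hw₁
  refine not_mem_pResOf_of_transfer hS (Q := U ⊔ zpowers (t * z₁))
    (sup_le (hUT.trans hTS) (zpowers_le.mpr hvS)) (hSS.trans le_sup_left) (hTS hzT) h₁.sq
    (fun e => ?_) fun g hg => ?_
  · rcases eq_or_eq_mul_of_mem_sup (hSU hvS) hv2 e with e' | e'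
    · exact hnU 1 (by simpa using e')
    · have h5 := mul_mem (inv_mem hzT) (hUT e')
      rw [inv_mul_cancel_left, inv_mem_iff] at h5
      exact hvT h5
  · by_cases hg' : g⁻¹ * z₁ * g ∈ T
    · exact mem_sup_left ((hor _ hg').resolve_left (hnU g))
    rcases hor _ (hmul _ (inv_mem hvS) _ hg (fun e => hvT (inv_mem_iff.mp e)) hg') with e | e
    · exact absurd (by rw [mul_inv_cancel_left]; exact hsq g) (hno _ e)
    · have h5 : t * z₁ * ((t * z₁)⁻¹ * (g⁻¹ * z₁ * g) * z₁) ∈ U ⊔ zpowers (t * z₁) :=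
        mul_mem (mem_sup_right (mem_zpowers _)) (mem_sup_left e)
      convert h5 using 1; group

omit h₁ h₂ in
theorem isMaximal_subgroupOf {H : Subgroup G} (hK : K₁ ≤ H) (hQ : pCoreOf 2 L₁ ⊓ H ≤ wOf K₁) :
    IsMaximalTwoLocal (L₁.subgroupOf H) := by
  have := Fact.mk Nat.prime_two
  have hW := h.b₁.jc.four
  have hWH : wOf K₁ ≤ H := (ZN.wOf_le K₁).trans hK
  have key : ∀ R : Subgroup G, R ≤ H → L₁ ⊓ H ≤ normalizer (R : Set G) → IsPGroup 2 R → R ≠ ⊥ →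
      R = wOf K₁ := fun R hRH hn hR hR1 => by
    have hC : H ⊓ centralizer (wOf K₁ : Set G) ≤ wOf K₁ := fun x hx => hQ (mem_inf.mpr ⟨by
      rw [h.L_eq, h.b₁.pCoreOf_P h.n₁, ← h.L_eq]
      exact mem_inf.mpr ⟨h.normalizer_wOf ▸ centralizer_le_normalizer _ hx.2, hx.2⟩, hx.1⟩)
    have hKn : K₁ ≤ normalizer (R : Set G) := (le_inf h.b₁.KL hK).trans hn
    have h1 : R ⊓ centralizer (wOf K₁ : Set G) = wOf K₁ :=
      (h.b₁.jc.eq_bot_or_eq ((inf_le_inf_right _ hRH).trans hC)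
        (le_normalizer_inf hKn (le_normalizer_centralizer (le_normalizer_wOf K₁)))).resolve_left
        (CfsgLib.Core.inf_centralizer_ne_bot_of_isPGroup hR hW.isPGroup
          ((ZN.wOf_le K₁).trans hKn) hR1)
    refine (eq_of_inf_normalizer_le hR (h1 ▸ inf_le_left) ?_).symm
    refine (le_inf (inf_le_left.trans hRH) (h.b₁.jc.le_centralizer_wOf (hR.to_inf_left)
      inf_le_right (le_normalizer_inf hKn ((le_normalizer_wOf K₁).trans le_normalizer)))).trans hC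
  refine ⟨⟨(wOf K₁).subgroupOf H, (isPGroup_subgroupOf_iff hWH).mpr hW.isPGroup, fun e => hW.ne_bot
    (by rw [← map_subgroupOf_of_le hWH, e, Subgroup.map_bot]),
    by rw [← subgroupOf_normalizer_eq hWH, h.normalizer_wOf]⟩, ?_⟩
  rintro _ ⟨R, hR, hR1, rfl⟩ hle
  have h1 := key (R.map H.subtype) (map_subtype_le R) (by
    rw [← subgroupOf_map_subtype]
    exact (map_le_normalizer_map_iff H.subtype_injective).mpr hle) (hR.map _)
    (by rwa [Ne, map_eq_bot_iff_of_injective _ H.subtype_injective])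
  rw [← h.normalizer_wOf, ← h1, subgroupOf_normalizer_eq (map_subtype_le R), subgroupOf,
    comap_map_eq_self_of_injective H.subtype_injective]

end Pair

omit [Finite G] in
theorem two_mul_card_inf {X H U : Subgroup G} {z : G} (hX : X ≤ U ⊔ zpowers z) (hzX : z ∈ X)
    (hU : U ≤ H) (hz : z ∈ normalizer (U : Set G)) (hz2 : z * z = 1) (hzH : z ∉ H) :
    Nat.card (X.subgroupOf H) * 2 = Nat.card X := by
  have hzi : z⁻¹ = z := inv_eq_of_mul_eq_one_right hz2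
  have h1 : H.relIndex X = 2 := relIndex_eq_two_iff.mpr ⟨z, hzX, fun b hb => by
    have h2 : ¬ (b * z ∈ H ∧ b ∈ H) := fun e => hzH (by simpa using mul_mem (inv_mem e.2) e.1)
    rcases eq_or_eq_mul_of_mem_sup hz (hz2 ▸ one_mem _) (hX hb) with e | e
    · exact Or.inr ⟨hU e, fun e' => h2 ⟨e', hU e⟩⟩
    · rw [hzi] at e
      exact Or.inl ⟨hU e, fun e' => h2 ⟨hU e, e'⟩⟩⟩
  rw [← inf_subgroupOf_right, CfsgLib.Core.card_subgroupOf_of_le inf_le_right, ← h1,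
    ← inf_relIndex_left, CfsgLib.Core.card_mul_relIndex_of_le inf_le_left]

namespace Pair

variable {T K₁ L₁ K₂ L₂ : Subgroup G} (h : Pair T K₁ L₁ K₂ L₂)
include h

theorem subgroupOf_ne {H : Subgroup G} (hK : K₂ ≤ H) : L₁.subgroupOf H ≠ L₂.subgroupOf H :=
  fun e => h.ne fun x hx => by
    have : (⟨x, hK hx⟩ : H) ∈ L₂.subgroupOf H := h.b₂.KL hx
    rw [← e] at this
    exact this

theorem subgroupOf_inf (H : Subgroup G) : L₁.subgroupOf H ⊓ L₂.subgroupOf H = T.subgroupOf H := by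
  rw [← h.inf_eq, ← h.L_eq, ← h.symm.L_eq]
  exact (comap_inf _ _ _).symm

variable {H : Subgroup G} {z₁ z₂ : G} (h₁ : Cz K₁ L₁ z₁) (h₂ : Cz K₂ L₂ z₂) (hz : z₁ ∉ H)
  (hK₁ : K₁ ≤ H) (hK₂ : K₂ ≤ H)

include h₁ hz hK₁ in
theorem core_inf_le : pCoreOf 2 L₁ ⊓ H ≤ wOf K₁ := fun x hx =>
  (eq_or_eq_mul_of_mem_sup (h.T_le_normalizer (h.b₁.syl.pCoreOf_le h₁.mem)) (h₁.sq ▸ one_mem _)
    (h₁.core ▸ hx.1)).resolve_right fun e => hz (by
      simpa using mul_mem (inv_mem (hK₁ (ZN.wOf_le K₁ e))) hx.2)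

include h₁ h₂ hz hK₁ hK₂ in
theorem card_T_subgroupOf : Nat.card (T.subgroupOf H) = 8 := by
  have hzT := h.b₁.syl.pCoreOf_le h₁.mem
  have h1 := two_mul_card_inf (h.T_eq h₁ h₂).le hzT
    (sup_le ((ZN.wOf_le K₁).trans hK₁) ((ZN.wOf_le K₂).trans hK₂))
    (le_normalizer_sup h.T_le_normalizer h.symm.T_le_normalizer hzT) h₁.sq hz
  have h2 := CfsgLib.Core.card_mul_relIndex_of_le h.b₁.syl.pCoreOf_le
  rw [h.idxL, h₁.card] at h2
  omega

include h₁ h₂ hz hK₁ hK₂ in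
theorem equiv_subgroupOf
    (e : (K₁ ⊔ T : Subgroup G) ≃* Multiplicative (ZMod 2) × Equiv.Perm (Fin 4)) :
    Nonempty (L₁.subgroupOf H ≃* Equiv.Perm (Fin 4)) := by
  have hU : K₁ ⊔ (wOf K₁ ⊔ wOf K₂) ≤ L₁ := sup_le h.b₁.KL (sup_le ((ZN.wOf_le K₁).trans h.b₁.KL)
    ((h.symm.wOf_le.trans h.b₂.syl.pCoreOf_le).trans h.b₁.syl.le))
  have h1 := two_mul_card_inf (X := L₁) (U := K₁ ⊔ (wOf K₁ ⊔ wOf K₂))
    (by rw [sup_assoc, ← h.T_eq h₁ h₂, ← h.L_eq]) (pCoreOf_le _ h₁.mem)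
    (sup_le hK₁ (sup_le ((ZN.wOf_le K₁).trans hK₁) ((ZN.wOf_le K₂).trans hK₂)))
    (centralizer_le_normalizer _ (centralizer_anti hU h₁.cent)) h₁.sq hz
  have h2 : Nat.card L₁ = 48 := by
    rw [h.L_eq, Nat.card_congr e.toEquiv, Nat.card_eq_fintype_card]
    simp [Fintype.card_perm, Nat.factorial]
  let i : L₁.subgroupOf H →* (K₁ ⊔ T : Subgroup G) :=
    (H.subtype.comp (L₁.subgroupOf H).subtype).codRestrict _ fun x => h.L_eq ▸ x.2
  let f : L₁.subgroupOf H →* Equiv.Perm (Fin 4) :=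
    (MonoidHom.snd _ _).comp (e.toMonoidHom.comp i)
  have hf : Function.Injective f := by
    rw [injective_iff_map_eq_one]
    intro x hx
    have hc : ((x : H) : G) ∈ centralizer ((K₁ ⊔ T : Subgroup G) : Set G) := by
      intro p hp
      have : (⟨p, hp⟩ : (K₁ ⊔ T : Subgroup G)) * i x = i x * ⟨p, hp⟩ := e.injective (by
        have hx' : (e (i x)).2 = 1 := hx
        rw [map_mul, map_mul]
        exact Prod.ext (mul_comm _ _) (by simp [hx']))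
      exact congrArg Subtype.val this
    have h3 : ((x : H) : G) ∈ wOf K₁ := h.core_inf_le h₁ hz hK₁ (mem_inf.mpr
      ⟨h.b₁.sc (centralizer_anti ((pCoreOf_le _).trans h.L_eq.le) hc), (x : H).2⟩)
    have h4 : ((x : H) : G) = 1 := by
      rw [← mem_bot, ← h.b₁.jc.inf_centralizer_eq_bot]
      exact mem_inf.mpr ⟨h3, centralizer_anti le_sup_left hc⟩
    exact Subtype.ext (Subtype.ext h4)
  refine ⟨MulEquiv.ofBijective f ((Nat.bijective_iff_injective_and_card f).mpr ⟨hf, ?_⟩)⟩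
  rw [Nat.card_eq_fintype_card (α := Equiv.Perm (Fin 4)), Fintype.card_perm]
  simp only [Fintype.card_fin, Nat.factorial]
  omega

omit h₁ h₂ hz hK₁ hK₂ in
/-- The two maximal `2`-local subgroups of `O²(G)`. -/
theorem exists_residual {H : Subgroup G} (hH : H = pResOf 2 ⊤) :
    ∃ M₁ M₂ : Subgroup H, M₁ ≠ M₂ ∧ IsMaximalTwoLocal M₁ ∧ IsMaximalTwoLocal M₂ ∧
      Nonempty (M₁ ≃* Equiv.Perm (Fin 4)) ∧ Nonempty (M₂ ≃* Equiv.Perm (Fin 4)) ∧
      Nat.card ↥(M₁ ⊓ M₂) = 8 := by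
  have hK₁ : K₁ ≤ H := hH ▸ h.b₁.jc.res ▸ pResOf_mono le_top
  have hK₂ : K₂ ≤ H := hH ▸ h.b₂.jc.res ▸ pResOf_mono le_top
  refine ⟨L₁.subgroupOf H, L₂.subgroupOf H, h.subgroupOf_ne hK₂, ?_⟩
  rw [h.subgroupOf_inf]
  rcases h.equiv with ⟨⟨e₁⟩, ⟨e₂⟩⟩ | ⟨⟨e₁⟩, ⟨e₂⟩⟩
  · have q₁ : pCoreOf 2 L₁ = wOf K₁ := h.L_eq ▸ h.b₁.pCoreOf_eq_of_equiv h.n₁ e₁
    have q₂ : pCoreOf 2 L₂ = wOf K₂ := h.symm.L_eq ▸ h.b₂.pCoreOf_eq_of_equiv h.n₂ e₂
    have hT : T ≤ H := by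
      rw [← h.sup_eq, q₁, q₂]
      exact sup_le ((ZN.wOf_le K₁).trans hK₁) ((ZN.wOf_le K₂).trans hK₂)
    refine ⟨h.isMaximal_subgroupOf hK₁ (inf_le_left.trans q₁.le),
      h.symm.isMaximal_subgroupOf hK₂ (inf_le_left.trans q₂.le), ?_, ?_, ?_⟩
    · rw [h.L_eq]; exact ⟨(subgroupOfEquivOfLe (sup_le hK₁ hT)).trans e₁⟩
    · rw [h.symm.L_eq]; exact ⟨(subgroupOfEquivOfLe (sup_le hK₂ hT)).trans e₂⟩
    · rw [CfsgLib.Core.card_subgroupOf_of_le hT,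
        ← CfsgLib.Core.card_mul_relIndex_of_le h.b₁.syl.pCoreOf_le, h.idxL, q₁, h.b₁.jc.four.card]
  · obtain ⟨z₁, h₁⟩ := h.exists_cz e₁
    obtain ⟨z₂, h₂⟩ := h.symm.exists_cz e₂
    have hz₁ : z₁ ∉ H := hH ▸ h.not_mem_pResOf h₁ h₂
    have hz₂ : z₂ ∉ H := hH ▸ h.symm.not_mem_pResOf h₂ h₁
    exact ⟨h.isMaximal_subgroupOf hK₁ (h.core_inf_le h₁ hz₁ hK₁),
      h.symm.isMaximal_subgroupOf hK₂ (h.symm.core_inf_le h₂ hz₂ hK₂),
      h.equiv_subgroupOf h₁ h₂ hz₁ hK₁ hK₂ e₁, h.symm.equiv_subgroupOf h₂ h₁ hz₂ hK₂ hK₁ e₂,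
      h.card_T_subgroupOf h₁ h₂ hz₁ hK₁ hK₂⟩

end Pair

end CfsgLib.ZN
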